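/-
The corner `e ℂ[G] e` of the group algebra at the idempotent of a subgroup `B`: the operator `y ↦ e (∑ g y g⁻¹) e`
has as image the span of the `e f_χ`, one for each irreducible constituent of the permutation character on `G / B`.
-/
import Cfsg.Agent.Lib.Char.Complete
import Cfsg.Agent.Lib.Char.Constituent
import Cfsg.Agent.Lib.Char.PermChar
import Cfsg.Agent.Lib.Char.Invariants
import Cfsg.Agent.Lib.Char.Ops
import Cfsg.Agent.Lib.BNSt.DefZero

set_option autoImplicit false

namespace Cfsg.Agent.Lib.Hecke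

open MonoidAlgebra Module
open Cfsg (classInner IsCharacter IsIrrCharacter IrrCharacter IsClassFunction fixedPointCharacter)
open Cfsg.Agent.Lib.Char

universe u

section Basic

variable {G : Type u} [Group G]

/-- The basis element of a group element. -/
noncomputable def oo (g : G) : MonoidAlgebra ℂ G := single g 1

lemma oo_mul (g h : G) : oo (g * h) = oo g * oo h := by
  simp [oo, single_mul_single]

lemma oo_one : oo (1 : G) = 1 := rfl

lemma oo_mul_inv (g : G) : oo g * oo g⁻¹ = 1 := by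
  rw [← oo_mul, mul_inv_cancel, oo_one]

lemma oo_inv_mul (g : G) : oo g⁻¹ * oo g = 1 := by
  rw [← oo_mul, inv_mul_cancel, oo_one]

lemma ext' {a b : MonoidAlgebra ℂ G} (h : ∀ x, a.coeff x = b.coeff x) : a = b :=
  MonoidAlgebra.ext (Finsupp.ext h)

lemma coeff_oo_mul (g : G) (a : MonoidAlgebra ℂ G) (x : G) : (oo g * a).coeff x = a.coeff (g⁻¹ * x) := by
  simp [oo, coeff_single_mul_apply]

lemma coeff_mul_oo (g : G) (a : MonoidAlgebra ℂ G) (x : G) : (a * oo g).coeff x = a.coeff (x * g⁻¹) := by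
  simp [oo, coeff_mul_single_apply]

variable [Fintype G]

/-- The element with given coefficients. -/
noncomputable def mkA (f : G → ℂ) : MonoidAlgebra ℂ G := ∑ g, f g • oo g

lemma coeff_mkA (f : G → ℂ) (x : G) : (mkA f).coeff x = f x := by
  classical
  simp only [mkA, coeff_sum, Finsupp.finsetSum_apply, coeff_smul_apply, oo]
  rw [Finset.sum_eq_single x]
  · simp
  · intro b _ hb
    simp [coeff_single, Finsupp.single_apply, hb]
  · simp

lemma eq_mkA (a : MonoidAlgebra ℂ G) : a = ∑ g, a.coeff g • oo g :=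
  ext' fun x => (coeff_mkA a.coeff x).symm

/-- An element commuting with the group is central. -/
lemma comm_of_oo {z : MonoidAlgebra ℂ G} (h : ∀ g, oo g * z = z * oo g) (a : MonoidAlgebra ℂ G) : a * z = z * a := by
  rw [eq_mkA a, Finset.sum_mul, Finset.mul_sum]
  refine Finset.sum_congr rfl fun g _ => ?_
  rw [smul_mul_assoc, mul_smul_comm, h]

/-- The linear extension of a function. -/
noncomputable def xt (χ : G → ℂ) : MonoidAlgebra ℂ G →ₗ[ℂ] ℂ where
  toFun a := ∑ x, a.coeff x * χ x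
  map_add' a b := by
    simp only [coeff_add, Finsupp.add_apply, add_mul, Finset.sum_add_distrib]
  map_smul' c a := by
    simp only [coeff_smul_apply, smul_eq_mul, RingHom.id_apply, Finset.mul_sum, mul_assoc]

lemma xt_apply (χ : G → ℂ) (a : MonoidAlgebra ℂ G) : xt χ a = ∑ x, a.coeff x * χ x := rfl

lemma xt_oo (χ : G → ℂ) (g : G) : xt χ (oo g) = χ g := by
  classical
  rw [xt_apply, Finset.sum_eq_single g]
  · simp [oo]
  · intro b _ hb
    simp [oo, coeff_single, Finsupp.single_apply, hb.symm]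
  · simp

/-- The central element of a character. -/
noncomputable def ft (χ : G → ℂ) : MonoidAlgebra ℂ G := ∑ g, χ g⁻¹ • oo g

lemma coeff_ft (χ : G → ℂ) (x : G) : (ft χ).coeff x = χ x⁻¹ := coeff_mkA _ x

lemma ft_comm {χ : G → ℂ} (hχ : IsClassFunction G χ) (a : MonoidAlgebra ℂ G) : a * ft χ = ft χ * a := by
  refine comm_of_oo (fun h => ?_) a
  refine ext' fun x => ?_
  rw [coeff_oo_mul, coeff_mul_oo, coeff_ft, coeff_ft]
  have e : (x * h⁻¹)⁻¹ = h * (h⁻¹ * x)⁻¹ * h⁻¹ := by group
  rw [e, hχ]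

section Rep

variable {V : Type*} [AddCommGroup V] [Module ℂ V] [FiniteDimensional ℂ V] (ρ : Representation ℂ G V)

omit [Fintype G] [FiniteDimensional ℂ V] in
lemma rep_oo (g : G) : ρ.asAlgebraHom (oo g) = ρ g := by
  rw [oo, Representation.asAlgebraHom_single, one_smul]

lemma trace_rep (a : MonoidAlgebra ℂ G) : LinearMap.trace ℂ V (ρ.asAlgebraHom a) = xt ρ.character a := by
  rw [eq_mkA a, map_sum, map_sum, map_sum]
  refine Finset.sum_congr rfl fun g _ => ?_
  rw [map_smul, map_smul, map_smul, rep_oo, xt_oo]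
  rfl

end Rep

/-- The Schur scalar of a central element. -/
lemma rep_ft {n : ℕ} {ρ : Representation ℂ G (Fin n → ℂ)} (hρ : ρ.IsIrreducible) {ψ : G → ℂ} (hψ : IsIrrCharacter G ψ) :
    ρ.asAlgebraHom (ft ψ) = ((Nat.card G : ℂ) * classInner ρ.character ψ / ρ.character 1) • 1 := by
  have hχ : IsIrrCharacter G ρ.character := ⟨n, ρ, hρ, rfl⟩
  have hψc := IsIrrCharacter.isCharacter hψ
  obtain ⟨c, hc⟩ := schur_scalar ρ hρ (ρ.asAlgebraHom (ft ψ)) (by
    intro g v
    have h := ft_comm (IsCharacter.isClassFunction hψc) (oo g)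
    have h2 := congrArg (fun a => ρ.asAlgebraHom a v) h
    simp only [map_mul, Module.End.mul_apply, rep_oo] at h2
    exact h2.symm)
  have h1 := trace_rep ρ (ft ψ)
  rw [hc, map_smul] at h1
  have h2 : LinearMap.trace ℂ (Fin n → ℂ) (1 : Module.End ℂ (Fin n → ℂ)) = ρ.character 1 := by
    have := trace_rep ρ (1 : MonoidAlgebra ℂ G)
    rw [map_one] at this
    rw [this, ← oo_one, xt_oo]
  rw [h2] at h1
  have h3 : xt ρ.character (ft ψ) = (Nat.card G : ℂ) * classInner ρ.character ψ := by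
    rw [classInner_eq_inv _ _ hψc, ← mul_assoc, mul_inv_cancel₀ (card_ne_zero_complex G), one_mul, xt_apply]
    refine Finset.sum_congr rfl fun g _ => ?_
    rw [coeff_ft, mul_comm]
  rw [h3, smul_eq_mul] at h1
  have hne : ρ.character 1 ≠ 0 := map_one_ne_zero_of_irr hχ
  rw [hc]
  congr 1
  field_simp
  exact h1

/-- A product with a central element of a character. -/
lemma xt_mul_ft {χ ψ : G → ℂ} (hχ : IsIrrCharacter G χ) (hψ : IsIrrCharacter G ψ) (a : MonoidAlgebra ℂ G) :
    xt χ (a * ft ψ) = ((Nat.card G : ℂ) * classInner χ ψ / χ 1) * xt χ a := by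
  obtain ⟨n, ρ, hρ, rfl⟩ := hχ
  rw [← trace_rep, map_mul, rep_ft hρ hψ, mul_smul_comm, mul_one, map_smul, trace_rep, smul_eq_mul]

/-- The sum of the conjugates. -/
noncomputable def CC (y : MonoidAlgebra ℂ G) : MonoidAlgebra ℂ G := ∑ g, oo g * y * oo g⁻¹

lemma coeff_CC (y : MonoidAlgebra ℂ G) (x : G) : (CC y).coeff x = ∑ g, y.coeff (g⁻¹ * x * g) := by
  simp only [CC, coeff_sum, Finsupp.finsetSum_apply]
  refine Finset.sum_congr rfl fun g _ => ?_
  rw [coeff_mul_oo, coeff_oo_mul]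
  congr 1
  group

lemma CC_comm (y a : MonoidAlgebra ℂ G) : a * CC y = CC y * a := by
  refine comm_of_oo (fun h => ?_) a
  simp only [CC, Finset.mul_sum, Finset.sum_mul]
  refine Fintype.sum_equiv (Equiv.mulLeft h) _ _ fun g => ?_
  simp only [Equiv.coe_mulLeft]
  rw [oo_mul h g]
  have e : oo (h * g)⁻¹ * oo h = oo g⁻¹ := by
    rw [← oo_mul]
    congr 1
    group
  rw [mul_assoc (oo h * oo g * y), e]
  simp only [mul_assoc]

lemma CC_add (y z : MonoidAlgebra ℂ G) : CC (y + z) = CC y + CC z := by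
  simp only [CC, mul_add, add_mul, Finset.sum_add_distrib]

lemma CC_smul (c : ℂ) (y : MonoidAlgebra ℂ G) : CC (c • y) = c • CC y := by
  simp only [CC, Finset.smul_sum, mul_smul_comm, smul_mul_assoc]

lemma CC_sum {ι : Type*} (s : Finset ι) (f : ι → MonoidAlgebra ℂ G) : CC (∑ i ∈ s, f i) = ∑ i ∈ s, CC (f i) := by
  classical
  induction s using Finset.induction_on with
  | empty =>
    simp [CC]
  | insert a s ha ih => rw [Finset.sum_insert ha, Finset.sum_insert ha, CC_add, ih]

/-- The expansion along the characters. -/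
theorem CC_eq (y : MonoidAlgebra ℂ G) : CC y = ∑ χ : IrrCharacter G, xt (χ : G → ℂ) y • ft (χ : G → ℂ) := by
  classical
  set θ : G → ℂ := fun x => (CC y).coeff x⁻¹ with hθd
  have hcl : ∀ h z, (CC y).coeff (h * z * h⁻¹) = (CC y).coeff z := by
    intro h z
    have e1 : CC y = oo h⁻¹ * CC y * oo h := by
      rw [CC_comm y (oo h⁻¹), mul_assoc, oo_inv_mul, mul_one]
    conv_rhs => rw [e1]
    rw [coeff_mul_oo, coeff_oo_mul]
    congr 1
    group
  have hθ : IsClassFunction G θ := by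
    intro g h
    simp only [hθd]
    have e : (h * g * h⁻¹)⁻¹ = h * g⁻¹ * h⁻¹ := by group
    rw [e, hcl]
  have h1 := classFunction_eq_sum θ hθ
  have h2 : ∀ χ : IrrCharacter G, classInner θ (χ : G → ℂ) = xt (χ : G → ℂ) y := by
    intro χ
    have hχ := IsIrrCharacter.isCharacter χ.2
    rw [classInner_eq_inv _ _ hχ]
    have e1 : ∑ g, θ g * (χ : G → ℂ) g⁻¹ = ∑ x, (CC y).coeff x * (χ : G → ℂ) x :=
      Fintype.sum_equiv (Equiv.inv G) _ _ fun g => rfl
    have e2 : ∑ x, (CC y).coeff x * (χ : G → ℂ) x = ∑ h : G, xt (χ : G → ℂ) y := by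
      simp only [coeff_CC, Finset.sum_mul]
      rw [Finset.sum_comm]
      refine Finset.sum_congr rfl fun h _ => ?_
      rw [xt_apply]
      refine Fintype.sum_equiv (MulAut.conj h⁻¹).toEquiv _ _ fun x => ?_
      simp only [MulEquiv.toEquiv_eq_coe, MulAut.conj_apply, inv_inv, EquivLike.coe_coe]
      have e3 := IsCharacter.conj_apply hχ x h⁻¹
      rw [inv_inv] at e3
      rw [e3]
    rw [e1, e2, Finset.sum_const, Finset.card_univ, nsmul_eq_mul, ← mul_assoc, ← Nat.card_eq_fintype_card,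
      inv_mul_cancel₀ (card_ne_zero_complex G), one_mul]
  refine ext' fun x => ?_
  have h3 := congrFun h1 x⁻¹
  simp only [hθd, inv_inv, Finset.sum_apply, Pi.smul_apply, smul_eq_mul] at h3
  rw [h3]
  simp only [coeff_sum, Finsupp.finsetSum_apply, coeff_smul_apply, smul_eq_mul, coeff_ft]
  refine Finset.sum_congr rfl fun χ _ => ?_
  rw [h2]

lemma CC_one : CC (1 : MonoidAlgebra ℂ G) = (Nat.card G : ℂ) • 1 := by
  simp only [CC, mul_one, oo_mul_inv]
  rw [Finset.sum_const, Finset.card_univ, Nat.card_eq_fintype_card, Nat.cast_smul_eq_nsmul]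

end Basic

section Corner

variable {G : Type u} [Group G] [Fintype G] (B : Subgroup G) [Fintype B]

/-- The idempotent of a subgroup. -/
noncomputable def ee : MonoidAlgebra ℂ G := (Nat.card B : ℂ)⁻¹ • ∑ b : B, oo (b : G)

variable {B}

lemma card_B_ne : (Nat.card B : ℂ) ≠ 0 := by
  exact_mod_cast Nat.card_pos.ne'

lemma oo_mul_ee {b : G} (hb : b ∈ B) : oo b * ee B = ee B := by
  rw [ee, mul_smul_comm, Finset.mul_sum]
  congr 1
  refine Fintype.sum_equiv (Equiv.mulLeft (⟨b, hb⟩ : B)) _ _ fun c => ?_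
  rw [← oo_mul]
  rfl

lemma ee_mul_oo {b : G} (hb : b ∈ B) : ee B * oo b = ee B := by
  rw [ee, smul_mul_assoc, Finset.sum_mul]
  congr 1
  refine Fintype.sum_equiv (Equiv.mulRight (⟨b, hb⟩ : B)) _ _ fun c => ?_
  rw [← oo_mul]
  rfl

lemma ee_mul_of {z : MonoidAlgebra ℂ G} (h : ∀ b ∈ B, oo b * z = z) : ee B * z = z := by
  rw [ee, smul_mul_assoc, Finset.sum_mul]
  have e : ∀ c : B, oo (c : G) * z = z := fun c => h c c.2
  simp only [e]
  rw [Finset.sum_const, Finset.card_univ, ← Nat.card_eq_fintype_card, ← Nat.cast_smul_eq_nsmul ℂ, smul_smul,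
    inv_mul_cancel₀ card_B_ne, one_smul]

lemma of_mul_ee {z : MonoidAlgebra ℂ G} (h : ∀ b ∈ B, z * oo b = z) : z * ee B = z := by
  rw [ee, mul_smul_comm, Finset.mul_sum]
  have e : ∀ c : B, z * oo (c : G) = z := fun c => h c c.2
  simp only [e]
  rw [Finset.sum_const, Finset.card_univ, ← Nat.card_eq_fintype_card, ← Nat.cast_smul_eq_nsmul ℂ, smul_smul,
    inv_mul_cancel₀ card_B_ne, one_smul]

variable (B) in
lemma ee_mul_ee : ee B * ee B = ee B := ee_mul_of fun _ hb => oo_mul_ee hb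

/-- The image of the idempotent in a representation is zero when there are no invariants. -/
lemma rep_ee_eq_zero {V : Type*} [AddCommGroup V] [Module ℂ V] (ρ : Representation ℂ G V)
    (h : Representation.invariants (MonoidHom.comp ρ B.subtype) = ⊥) : ρ.asAlgebraHom (ee B) = 0 := by
  ext1 v
  have h1 : ρ.asAlgebraHom (ee B) v ∈ Representation.invariants (MonoidHom.comp ρ B.subtype) := by
    rintro ⟨b, hb⟩
    have h2 := congrArg (fun a => ρ.asAlgebraHom a v) (oo_mul_ee hb)
    simp only [map_mul, Module.End.mul_apply, rep_oo] at h2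
    exact h2
  rw [h] at h1
  simpa using h1

/-- The value of the extension at the idempotent. -/
lemma xt_ee {V : Type*} [AddCommGroup V] [Module ℂ V] [FiniteDimensional ℂ V] (ρ : Representation ℂ G V) :
    xt ρ.character (ee B) = (finrank ℂ (Representation.invariants (MonoidHom.comp ρ B.subtype)) : ℂ) := by
  rw [← classInner_restrict_one_eq_finrank ρ B, classInner_def]
  simp only [map_one, mul_one]
  rw [ee, map_smul, map_sum, smul_eq_mul]
  congr 1
  refine Finset.sum_congr rfl fun b _ => ?_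
  rw [xt_oo]

/-- The central idempotent cut down by `e`. -/
noncomputable def EE (B : Subgroup G) [Fintype B] (χ : G → ℂ) : MonoidAlgebra ℂ G := ee B * ft χ

lemma coeff_EE (χ : G → ℂ) (x : G) : (EE B χ).coeff x = xt χ (oo x⁻¹ * ee B) := by
  rw [EE, ee, smul_mul_assoc, mul_smul_comm, map_smul, coeff_smul_apply, Finset.sum_mul, Finset.mul_sum, map_sum,
    coeff_sum, Finsupp.finsetSum_apply]
  congr 1
  refine Finset.sum_congr rfl fun b _ => ?_
  rw [coeff_oo_mul, coeff_ft, ← oo_mul, xt_oo]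
  congr 1
  group

/-- A character which does not contain the principal character of `B` on restriction. -/
lemma EE_eq_zero {χ : G → ℂ} (hχ : IsIrrCharacter G χ) (h0 : xt χ (ee B) = 0) : EE B χ = 0 := by
  obtain ⟨n, ρ, hρ, rfl⟩ := hχ
  rw [xt_ee] at h0
  have h1 : Representation.invariants (MonoidHom.comp ρ B.subtype) = ⊥ := by
    have h2 : finrank ℂ (Representation.invariants (MonoidHom.comp ρ B.subtype)) = 0 := by exact_mod_cast h0
    exact Submodule.finrank_eq_zero.1 h2
  have h2 := rep_ee_eq_zero ρ h1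
  refine ext' fun x => ?_
  rw [coeff_EE, ← trace_rep, map_mul, h2, mul_zero, map_zero]
  rfl

lemma xt_eq_zero_of_mem {χ : G → ℂ} (hχ : IsIrrCharacter G χ) (h0 : xt χ (ee B) = 0) {y : MonoidAlgebra ℂ G}
    (hy : y * ee B = y) : xt χ y = 0 := by
  obtain ⟨n, ρ, hρ, rfl⟩ := hχ
  rw [xt_ee] at h0
  have h1 : Representation.invariants (MonoidHom.comp ρ B.subtype) = ⊥ := by
    have h2 : finrank ℂ (Representation.invariants (MonoidHom.comp ρ B.subtype)) = 0 := by exact_mod_cast h0
    exact Submodule.finrank_eq_zero.1 h2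
  have h2 := rep_ee_eq_zero ρ h1
  rw [← hy, ← trace_rep, map_mul, h2, mul_zero, map_zero]

/-- The operator on the corner. -/
noncomputable def HH (B : Subgroup G) [Fintype B] (y : MonoidAlgebra ℂ G) : MonoidAlgebra ℂ G := ee B * CC y * ee B

lemma ee_ft_ee {χ : G → ℂ} (hχ : IsClassFunction G χ) : ee B * ft χ * ee B = EE B χ := by
  rw [mul_assoc, ← ft_comm hχ, ← mul_assoc, ee_mul_ee]
  rfl

lemma HH_eq (y : MonoidAlgebra ℂ G) : HH B y = ∑ χ : IrrCharacter G, xt (χ : G → ℂ) y • EE B (χ : G → ℂ) := by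
  rw [HH, CC_eq, Finset.mul_sum, Finset.sum_mul]
  refine Finset.sum_congr rfl fun χ _ => ?_
  rw [mul_smul_comm, smul_mul_assoc, ee_ft_ee (IsCharacter.isClassFunction (IsIrrCharacter.isCharacter χ.2))]

lemma xt_EE {χ ψ : G → ℂ} (hχ : IsIrrCharacter G χ) (hψ : IsIrrCharacter G ψ) :
    xt χ (EE B ψ) = ((Nat.card G : ℂ) * classInner χ ψ / χ 1) * xt χ (ee B) :=
  xt_mul_ft hχ hψ _

lemma ee_mul_EE (χ : G → ℂ) : ee B * EE B χ = EE B χ := by
  rw [EE, ← mul_assoc, ee_mul_ee]

lemma EE_mul_ee {χ : G → ℂ} (hχ : IsClassFunction G χ) : EE B χ * ee B = EE B χ := ee_ft_ee hχ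

/-- The eigenvalue of `HH` on `E_ψ`. -/
theorem HH_EE {ψ : G → ℂ} (hψ : IsIrrCharacter G ψ) :
    HH B (EE B ψ) = (((Nat.card G : ℂ) / ψ 1) * xt ψ (ee B)) • EE B ψ := by
  classical
  rw [HH_eq, Finset.sum_eq_single (⟨ψ, hψ⟩ : IrrCharacter G)]
  · simp only
    rw [xt_EE hψ hψ, classInner_irr_self hψ, mul_one]
  · intro χ _ hne
    rw [xt_EE χ.2 hψ, classInner_irr_of_ne χ.2 hψ (fun h => hne (Subtype.ext h))]
    simp
  · intro h
    exact absurd (Finset.mem_univ _) h

/-- The idempotent as a combination of the `E_χ`. -/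
theorem ee_eq_sum : (Nat.card G : ℂ) • ee B = ∑ χ : IrrCharacter G, (χ : G → ℂ) 1 • EE B (χ : G → ℂ) := by
  have h1 := CC_eq (1 : MonoidAlgebra ℂ G)
  rw [CC_one] at h1
  have h2 := congrArg (fun a => ee B * a) h1
  simp only [mul_smul_comm, mul_one, Finset.mul_sum] at h2
  rw [h2]
  refine Finset.sum_congr rfl fun χ _ => ?_
  rw [← oo_one, xt_oo]
  rfl

/-- The operator takes the value `e`. -/
theorem exists_HH_eq_ee : ∃ y, ee B * y = y ∧ y * ee B = y ∧ HH B y = ee B := by
  classical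
  set c : IrrCharacter G → ℂ := fun χ => ((χ : G → ℂ) 1 / (Nat.card G : ℂ)) / (((Nat.card G : ℂ) / (χ : G → ℂ) 1) * xt (χ : G → ℂ) (ee B)) with hc
  have hdiv : ∀ χ : IrrCharacter G, (χ : G → ℂ) 1 ≠ 0 := fun χ => map_one_ne_zero_of_irr χ.2
  have hG : (Nat.card G : ℂ) ≠ 0 := card_ne_zero_complex G
  refine ⟨∑ χ : IrrCharacter G, c χ • EE B (χ : G → ℂ), ?_, ?_, ?_⟩
  · rw [Finset.mul_sum]
    refine Finset.sum_congr rfl fun χ _ => ?_
    rw [mul_smul_comm, ee_mul_EE]
  · rw [Finset.sum_mul]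
    refine Finset.sum_congr rfl fun χ _ => ?_
    rw [smul_mul_assoc, EE_mul_ee (IsCharacter.isClassFunction (IsIrrCharacter.isCharacter χ.2))]
  · have h1 : HH B (∑ χ : IrrCharacter G, c χ • EE B (χ : G → ℂ)) = ∑ χ : IrrCharacter G, c χ • HH B (EE B (χ : G → ℂ)) := by
      simp only [HH, CC_sum, CC_smul, Finset.mul_sum, Finset.sum_mul, mul_smul_comm, smul_mul_assoc]
    rw [h1]
    have h2 : ∀ χ : IrrCharacter G, c χ • HH B (EE B (χ : G → ℂ)) = ((χ : G → ℂ) 1 / (Nat.card G : ℂ)) • EE B (χ : G → ℂ) := by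
      intro χ
      rw [HH_EE χ.2, smul_smul]
      by_cases h0 : xt (χ : G → ℂ) (ee B) = 0
      · rw [EE_eq_zero χ.2 h0, smul_zero, smul_zero]
      · congr 1
        simp only [hc]
        have := hdiv χ
        field_simp
    simp only [h2]
    have h3 := congrArg (fun a => (Nat.card G : ℂ)⁻¹ • a) (ee_eq_sum (B := B))
    simp only [smul_smul, inv_mul_cancel₀ hG, one_smul, Finset.smul_sum] at h3
    rw [h3]
    refine Finset.sum_congr rfl fun χ _ => ?_
    congr 1
    field_simp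

/-- The corner. -/
def cornerS (B : Subgroup G) [Fintype B] : Submodule ℂ (MonoidAlgebra ℂ G) where
  carrier := {y | ee B * y = y ∧ y * ee B = y}
  add_mem' := by
    rintro a b ⟨h1, h2⟩ ⟨h3, h4⟩
    exact ⟨by rw [mul_add, h1, h3], by rw [add_mul, h2, h4]⟩
  zero_mem' := by simp
  smul_mem' := by
    rintro c a ⟨h1, h2⟩
    exact ⟨by rw [mul_smul_comm, h1], by rw [smul_mul_assoc, h2]⟩

lemma HH_mem_corner (y : MonoidAlgebra ℂ G) : HH B y ∈ cornerS B := by
  constructor
  · rw [HH, ← mul_assoc, ← mul_assoc, ee_mul_ee]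
  · rw [HH, mul_assoc, ee_mul_ee]

/-- `HH` as a linear map. -/
noncomputable def HHL (B : Subgroup G) [Fintype B] : MonoidAlgebra ℂ G →ₗ[ℂ] MonoidAlgebra ℂ G where
  toFun := HH B
  map_add' a b := by
    simp only [HH, CC_add, mul_add, add_mul]
  map_smul' c a := by
    simp only [HH, CC_smul, mul_smul_comm, smul_mul_assoc, RingHom.id_apply]

/-- The characters appearing. -/
abbrev IrrB (B : Subgroup G) [Fintype B] : Type u := {χ : IrrCharacter G // xt (χ : G → ℂ) (ee B) ≠ 0}

/-- The dimension of the image of `HH` on the corner. -/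
theorem finrank_HH : finrank ℂ ((cornerS B).map (HHL B)) = Nat.card (IrrB B) := by
  classical
  have hli : LinearIndependent ℂ (fun χ : IrrB B => EE B ((χ.1 : IrrCharacter G) : G → ℂ)) := by
    rw [Fintype.linearIndependent_iff]
    intro a ha ψ
    have h1 := congrArg (xt ((ψ.1 : IrrCharacter G) : G → ℂ)) ha
    rw [map_sum, map_zero, Finset.sum_eq_single ψ] at h1
    · rw [map_smul, xt_EE ψ.1.2 ψ.1.2, classInner_irr_self ψ.1.2, mul_one, smul_eq_mul] at h1
      have h2 : ((ψ.1 : IrrCharacter G) : G → ℂ) 1 ≠ 0 := map_one_ne_zero_of_irr ψ.1.2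
      have h3 : (Nat.card G : ℂ) ≠ 0 := card_ne_zero_complex G
      rcases mul_eq_zero.1 h1 with h4 | h4
      · exact h4
      · exfalso
        rcases mul_eq_zero.1 h4 with h5 | h5
        · exact (div_ne_zero h3 h2) h5
        · exact ψ.2 h5
    · intro χ _ hne
      rw [map_smul, xt_EE ψ.1.2 χ.1.2, classInner_irr_of_ne ψ.1.2 χ.1.2 (fun h => hne (Subtype.ext (Subtype.ext h)).symm)]
      simp
    · intro h
      exact absurd (Finset.mem_univ _) h
  have hspan : (cornerS B).map (HHL B) = Submodule.span ℂ (Set.range fun χ : IrrB B => EE B ((χ.1 : IrrCharacter G) : G → ℂ)) := by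
    apply le_antisymm
    · rintro _ ⟨y, hy, rfl⟩
      change HH B y ∈ _
      rw [HH_eq]
      refine Submodule.sum_mem _ fun χ _ => ?_
      by_cases h0 : xt (χ : G → ℂ) (ee B) = 0
      · rw [EE_eq_zero χ.2 h0, smul_zero]
        exact Submodule.zero_mem _
      · exact Submodule.smul_mem _ _ (Submodule.subset_span ⟨⟨χ, h0⟩, rfl⟩)
    · rw [Submodule.span_le]
      rintro _ ⟨χ, rfl⟩
      have h2 : ((χ.1 : IrrCharacter G) : G → ℂ) 1 ≠ 0 := map_one_ne_zero_of_irr χ.1.2
      have h3 : (Nat.card G : ℂ) ≠ 0 := card_ne_zero_complex G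
      have hc : (((Nat.card G : ℂ) / ((χ.1 : IrrCharacter G) : G → ℂ) 1) * xt ((χ.1 : IrrCharacter G) : G → ℂ) (ee B)) ≠ 0 :=
        mul_ne_zero (div_ne_zero h3 h2) χ.2
      refine ⟨(((Nat.card G : ℂ) / ((χ.1 : IrrCharacter G) : G → ℂ) 1) * xt ((χ.1 : IrrCharacter G) : G → ℂ) (ee B))⁻¹ • EE B ((χ.1 : IrrCharacter G) : G → ℂ), ?_, ?_⟩
      · refine Submodule.smul_mem _ _ ⟨ee_mul_EE _, EE_mul_ee (IsCharacter.isClassFunction (IsIrrCharacter.isCharacter χ.1.2))⟩
      · rw [map_smul]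
        change _ • HH B _ = _
        rw [HH_EE χ.1.2, smul_smul, inv_mul_cancel₀ hc, one_smul]
  rw [hspan, finrank_span_eq_card hli, Nat.card_eq_fintype_card]

/-- The constituents of the permutation character. -/
theorem irrB_iff (χ : IrrCharacter G) :
    xt (χ : G → ℂ) (ee B) ≠ 0 ↔ ∃ φ : G → ℂ, IsCharacter G φ ∧ fixedPointCharacter B = (χ : G → ℂ) + φ := by
  classical
  have hπ : IsCharacter G (fixedPointCharacter B) := permChar_isCharacter (G := G) (G ⧸ B)
  obtain ⟨χ', hχ'⟩ := χ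
  have hχ := hχ'
  obtain ⟨n, ρ, hρ, rfl⟩ := hχ'
  have h1 : xt ρ.character (ee B) = classInner ρ.character (fixedPointCharacter B) := by
    rw [xt_ee, Cfsg.Agent.Lib.BNSt.classInner_fix_eq]
  simp only
  rw [h1]
  constructor
  · intro h
    have h2 : classInner (fixedPointCharacter B) ρ.character ≠ 0 := by
      obtain ⟨m, hm⟩ := classInner_isCharacter_nat hπ (IsIrrCharacter.isCharacter hχ)
      obtain ⟨m', hm'⟩ := classInner_isCharacter_nat (IsIrrCharacter.isCharacter hχ) hπ
      have hcj : classInner (fixedPointCharacter B) ρ.character = (starRingEnd ℂ) (classInner ρ.character (fixedPointCharacter B)) := by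
        simp only [classInner, map_mul, map_sum, map_inv₀, map_natCast, Complex.conj_conj]
        congr 1
        refine Finset.sum_congr rfl fun g _ => ?_
        rw [mul_comm]
      rw [hcj]
      simpa using h
    exact ⟨_, isCharacter_sub_of_constituent hπ hχ h2, by simp⟩
  · rintro ⟨φ, hφ, e⟩
    rw [e, classInner_add_right, classInner_irr_self hχ]
    obtain ⟨m, hm⟩ := classInner_isCharacter_nat (IsIrrCharacter.isCharacter hχ) hφ
    rw [hm]
    intro h0
    have h1 : ((1 + m : ℕ) : ℂ) = 0 := by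
      push_cast
      exact h0
    have h2 : 1 + m = 0 := by exact_mod_cast h1
    omega

end Corner

end Cfsg.Agent.Lib.Hecke
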