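/-
Semicontinuity of the rank of a matrix with polynomial entries, and the deformation lemma behind Tits' theorem on
specialisations of Hecke algebras.
-/
import Mathlib

set_option autoImplicit false

namespace Cfsg.Agent.Lib.Hecke

open Polynomial Matrix

variable {m n : Type*} [Fintype m] [Fintype n] [DecidableEq m] [DecidableEq n]

/-- A matrix of rank `r` has a multiple which is the identity of size `r`. -/
lemma exists_PQ (M : Matrix m n ℂ) :
    ∃ (P : Matrix (Fin M.rank) m ℂ) (Q : Matrix n (Fin M.rank) ℂ), P * M * Q = 1 := by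
  classical
  set R := LinearMap.range M.mulVecLin with hR
  have hfr : Module.finrank ℂ R = M.rank := rfl
  obtain ⟨g, hg⟩ := LinearMap.exists_rightInverse_of_surjective (M.mulVecLin.rangeRestrict)
    (LinearMap.range_rangeRestrict _)
  have hdim : Module.finrank ℂ (Fin M.rank → ℂ) = Module.finrank ℂ R := by
    rw [hfr]
    simp
  let e : (Fin M.rank → ℂ) ≃ₗ[ℂ] R := LinearEquiv.ofFinrankEq _ _ hdim
  let Q' : (Fin M.rank → ℂ) →ₗ[ℂ] (n → ℂ) := g ∘ₗ (e : (Fin M.rank → ℂ) →ₗ[ℂ] R)
  let f : (Fin M.rank → ℂ) →ₗ[ℂ] (m → ℂ) := M.mulVecLin ∘ₗ Q'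
  have hf : ∀ v, f v = ((e v : R) : m → ℂ) := by
    intro v
    have h1 := LinearMap.congr_fun hg (e v)
    have h2 : ((M.mulVecLin.rangeRestrict (g (e v)) : R) : m → ℂ) = M.mulVecLin (g (e v)) := rfl
    rw [LinearMap.comp_apply, LinearMap.id_apply] at h1
    rw [← h1]
    exact h2.symm ▸ rfl
  have hinj : LinearMap.ker f = ⊥ := by
    rw [LinearMap.ker_eq_bot]
    intro a b hab
    rw [hf, hf] at hab
    exact e.injective (Subtype.ext hab)
  obtain ⟨P', hP'⟩ := LinearMap.exists_leftInverse_of_injective f hinj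
  refine ⟨LinearMap.toMatrix' P', LinearMap.toMatrix' Q', ?_⟩
  have hM : LinearMap.toMatrix' M.mulVecLin = M := by
    rw [← Matrix.toLin'_apply']
    exact LinearMap.toMatrix'_toLin' M
  have e1 : P' ∘ₗ M.mulVecLin ∘ₗ Q' = LinearMap.id := hP'
  calc LinearMap.toMatrix' P' * M * LinearMap.toMatrix' Q'
      = LinearMap.toMatrix' P' * (LinearMap.toMatrix' M.mulVecLin * LinearMap.toMatrix' Q') := by rw [hM, Matrix.mul_assoc]
    _ = LinearMap.toMatrix' (P' ∘ₗ M.mulVecLin ∘ₗ Q') := by rw [LinearMap.toMatrix'_comp, LinearMap.toMatrix'_comp]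
    _ = 1 := by rw [e1, LinearMap.toMatrix'_id]

/-- The value of a polynomial matrix. -/
noncomputable def evalM (A : Matrix m n ℂ[X]) (z : ℂ) : Matrix m n ℂ := A.map (Polynomial.eval z)

omit [Fintype m] [DecidableEq m] [DecidableEq n] in
lemma rank_evalM_le (A : Matrix m n ℂ[X]) (z : ℂ) : (evalM A z).rank ≤ Fintype.card n :=
  Matrix.rank_le_card_width _

/-- The rank of a polynomial matrix takes its largest value outside a finite set. -/
theorem semicont (A : Matrix m n ℂ[X]) :
    ∃ r : ℕ, (∀ z, (evalM A z).rank ≤ r) ∧ {z | (evalM A z).rank < r}.Finite := by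
  classical
  set Y : Set ℕ := Set.range fun z => (evalM A z).rank with hY
  have hne : Y.Nonempty := Set.range_nonempty _
  have hb : BddAbove Y := ⟨Fintype.card n, by rintro _ ⟨z, rfl⟩; exact rank_evalM_le A z⟩
  obtain ⟨z₀, hz₀⟩ := Nat.sSup_mem hne hb
  refine ⟨sSup Y, fun z => le_csSup hb ⟨z, rfl⟩, ?_⟩
  simp only at hz₀
  obtain ⟨P, Q, hPQ⟩ := exists_PQ (evalM A z₀)
  set d : ℂ[X] := ((P.map C) * A * (Q.map C)).det with hd
  have hev : ∀ z, d.eval z = (P * evalM A z * Q).det := by
    intro z
    have e1 : (evalRingHom z) d = (((P.map C) * A * (Q.map C)).map (evalRingHom z)).det := by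
      rw [hd, RingHom.map_det]
      rfl
    have e2 : (((P.map C) * A * (Q.map C)).map (evalRingHom z)) = P * evalM A z * Q := by
      rw [Matrix.map_mul, Matrix.map_mul]
      have e3 : (P.map C).map (evalRingHom z) = P := by
        ext i j
        simp
      have e4 : (Q.map C).map (evalRingHom z) = Q := by
        ext i j
        simp
      rw [e3, e4]
      rfl
    rw [e2] at e1
    exact e1
  have hd0 : d ≠ 0 := by
    intro h0
    have := hev z₀
    rw [h0, hPQ, Matrix.det_one] at this
    simp at this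
  refine (d.roots.toFinset.finite_toSet).subset ?_
  intro z hz
  change (evalM A z).rank < sSup Y at hz
  simp only [Finset.mem_coe, Multiset.mem_toFinset, mem_roots hd0, IsRoot.def]
  by_contra hne0
  rw [hev] at hne0
  have hu : IsUnit (P * evalM A z * Q) := by
    rw [Matrix.isUnit_iff_isUnit_det]
    exact isUnit_iff_ne_zero.2 hne0
  have h1 : (P * evalM A z * Q).rank = (evalM A z₀).rank := by
    rw [Matrix.rank_of_isUnit _ hu]
    simp
  have h2 : (P * evalM A z * Q).rank ≤ (evalM A z).rank :=
    (Matrix.rank_mul_le_left _ _).trans (Matrix.rank_mul_le_right _ _)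
  rw [h1, hz₀] at h2
  omega

/-- Tits' deformation lemma, in the form of ranks: if the kernel of `C t` is the range of `H t` for `t` in an infinite set,
then the rank of `H t` is constant on this set. -/
theorem deform {ι κ : Type*} [Fintype ι] [Fintype κ] [DecidableEq ι] [DecidableEq κ]
    (H : Matrix ι ι ℂ[X]) (C : Matrix κ ι ℂ[X]) (Q : Set ℂ) (hQ : Q.Infinite)
    (hker : ∀ t ∈ Q, LinearMap.ker (evalM C t).mulVecLin = LinearMap.range (evalM H t).mulVecLin)
    {t t' : ℂ} (ht : t ∈ Q) (ht' : t' ∈ Q) : (evalM H t).rank = (evalM H t').rank := by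
  obtain ⟨r, hr, hrf⟩ := semicont H
  obtain ⟨s, hs, hsf⟩ := semicont C
  have hadd : ∀ z ∈ Q, (evalM H z).rank + (evalM C z).rank = Fintype.card ι := by
    intro z hz
    have h1 := LinearMap.finrank_range_add_finrank_ker (evalM C z).mulVecLin
    rw [hker z hz] at h1
    simp only [Module.finrank_fintype_fun_eq_card] at h1
    have e1 : Module.finrank ℂ (LinearMap.range (evalM C z).mulVecLin) = (evalM C z).rank := rfl
    have e2 : Module.finrank ℂ (LinearMap.range (evalM H z).mulVecLin) = (evalM H z).rank := rfl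
    rw [e1, e2] at h1
    omega
  obtain ⟨z, hz, hz1⟩ := (hQ.sdiff (hrf.union hsf)).nonempty
  have hz1 : r ≤ (evalM H z).rank ∧ s ≤ (evalM C z).rank := by
    constructor
    · by_contra hlt
      exact hz1 (Or.inl (not_le.1 hlt))
    · by_contra hlt
      exact hz1 (Or.inr (not_le.1 hlt))
  have hz2 := hadd z hz
  have hrz := hr z
  have hsz := hs z
  have h1 : r + s = Fintype.card ι := by
    have : (evalM H z).rank = r := le_antisymm hrz hz1.1
    have : (evalM C z).rank = s := le_antisymm hsz hz1.2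
    omega
  have h2 := hadd t ht
  have h3 := hadd t' ht'
  have h4 := hr t
  have h5 := hr t'
  have h6 := hs t
  have h7 := hs t'
  omega

end Cfsg.Agent.Lib.Hecke
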