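/-
The left and right multiplications of the generic Iwahori-Hecke algebra, as matrices depending polynomially on the parameter;
the value `1` of the parameter: the group algebra of the Weyl group.
-/
import Cfsg.Agent.Lib.Hecke.Rank
import Cfsg.Agent.Lib.BNSt.Cox
import Cfsg.Agent.Lib.Char.Complete

set_option autoImplicit false

namespace Cfsg.Agent.Lib.Hecke

open Polynomial Matrix Cfsg.Agent.Lib.BNSt

section Def

variable {W : Type*} [Group W] [Fintype W] [DecidableEq W] (len : W → ℕ) {R : Type*} [CommRing R]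

/-- Left multiplication by the basis element of a generator. -/
def Ls (t : R) (s : W) : Matrix W W R := fun v w =>
  if len w < len (s * w) then (if v = s * w then 1 else 0)
  else (if v = s * w then t else 0) + (if v = w then t - 1 else 0)

/-- Right multiplication by the basis element of a generator. -/
def Rs (t : R) (s : W) : Matrix W W R := fun v w =>
  if len w < len (w * s) then (if v = w * s then 1 else 0)
  else (if v = w * s then t else 0) + (if v = w then t - 1 else 0)

/-- Left multiplication along a word. -/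
def Lw (t : R) (l : List W) : Matrix W W R := (l.map (Ls len t)).prod

/-- Right multiplication along a word: `a ↦ a T_{s_k} ⋯ T_{s_1}` for `l = [s_1, …, s_k]`. -/
def Rw (t : R) (l : List W) : Matrix W W R := (l.map (Rs len t)).prod

/-- The Higman operator: `z ↦ ∑ t^(N - ℓ(w)) T_w z T_{w⁻¹}`. -/
def Hig (wd : W → List W) (t : R) : Matrix W W R :=
  ∑ w, t ^ ((∑ v, len v) - len w) • (Lw len t (wd w) * Rw len t (wd w))

/-- The map `a ↦ (T_s a - a T_s)_s`. -/
def Cm (S : Type*) (σ : S → W) (t : R) : Matrix (S × W) W R := fun p w =>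
  (Ls len t (σ p.1) - Rs len t (σ p.1)) p.2 w

/-! ### Specialisation -/

omit [Fintype W] in
lemma map_Ls {R' : Type*} [CommRing R'] (f : R →+* R') (t : R) (s : W) : (Ls len t s).map f = Ls len (f t) s := by
  ext v w
  simp only [Matrix.map_apply, Ls]
  split_ifs <;> simp

omit [Fintype W] in
lemma map_Rs {R' : Type*} [CommRing R'] (f : R →+* R') (t : R) (s : W) : (Rs len t s).map f = Rs len (f t) s := by
  ext v w
  simp only [Matrix.map_apply, Rs]
  split_ifs <;> simp

lemma map_Lw {R' : Type*} [CommRing R'] (f : R →+* R') (t : R) (l : List W) : (Lw len t l).map f = Lw len (f t) l := by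
  induction l with
  | nil => simp [Lw, Matrix.map_one]
  | cons a l ih =>
    have e1 : Lw len t (a :: l) = Ls len t a * Lw len t l := by simp [Lw]
    have e2 : Lw len (f t) (a :: l) = Ls len (f t) a * Lw len (f t) l := by simp [Lw]
    rw [e1, e2, Matrix.map_mul, ih, map_Ls]

lemma map_Rw {R' : Type*} [CommRing R'] (f : R →+* R') (t : R) (l : List W) : (Rw len t l).map f = Rw len (f t) l := by
  induction l with
  | nil => simp [Rw, Matrix.map_one]
  | cons a l ih =>
    have e1 : Rw len t (a :: l) = Rs len t a * Rw len t l := by simp [Rw]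
    have e2 : Rw len (f t) (a :: l) = Rs len (f t) a * Rw len (f t) l := by simp [Rw]
    rw [e1, e2, Matrix.map_mul, ih, map_Rs]

lemma map_Hig {R' : Type*} [CommRing R'] (f : R →+* R') (wd : W → List W) (t : R) :
    (Hig len wd t).map f = Hig len wd (f t) := by
  ext v w
  simp only [Matrix.map_apply, Hig, Matrix.sum_apply, Matrix.smul_apply, map_sum, smul_eq_mul, map_mul, map_pow]
  refine Finset.sum_congr rfl fun x _ => ?_
  congr 1
  rw [← map_Lw len f, ← map_Rw len f, ← Matrix.map_mul]
  rfl

omit [Fintype W] in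
lemma map_Cm {R' : Type*} [CommRing R'] (f : R →+* R') {S : Type*} (σ : S → W) (t : R) :
    (Cm len S σ t).map f = Cm len S σ (f t) := by
  ext p w
  simp only [Matrix.map_apply, Cm, Matrix.sub_apply, map_sub]
  rw [← map_Ls len f, ← map_Rs len f]
  rfl

lemma evalM_Hig (wd : W → List W) (z : ℂ) : evalM (Hig len wd (X : ℂ[X])) z = Hig len wd z := by
  have := map_Hig len (evalRingHom z) wd (X : ℂ[X])
  simpa [evalM] using this

lemma evalM_Cm {S : Type*} [Fintype S] [DecidableEq S] (σ : S → W) (z : ℂ) : evalM (Cm len S σ (X : ℂ[X])) z = Cm len S σ z := by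
  have := map_Cm len (evalRingHom z) σ (X : ℂ[X])
  simpa [evalM] using this

end Def

/-! ### The kernel of the commutator map as a submodule -/

section Ker

variable {W : Type*} [Group W] [Fintype W] [DecidableEq W] (len : W → ℕ)

lemma mem_ker_Cm {S : Type*} [Fintype S] [DecidableEq S] (σ : S → W) (t : ℂ) (a : W → ℂ) :
    a ∈ LinearMap.ker (Cm len S σ t).mulVecLin ↔ ∀ s, (Ls len t (σ s)) *ᵥ a = (Rs len t (σ s)) *ᵥ a := by
  rw [LinearMap.mem_ker, Matrix.mulVecLin_apply]
  constructor
  · intro h s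
    funext v
    have := congrFun h (s, v)
    simp only [Matrix.mulVec, dotProduct, Cm, Matrix.sub_apply, sub_mul, Finset.sum_sub_distrib, Pi.zero_apply] at this
    simpa [Matrix.mulVec, dotProduct, sub_eq_zero] using this
  · intro h
    funext p
    have := congrFun (h p.1) p.2
    simp only [Matrix.mulVec, dotProduct, Cm, Matrix.sub_apply, sub_mul, Finset.sum_sub_distrib, Pi.zero_apply]
    simpa [Matrix.mulVec, dotProduct, sub_eq_zero] using this

end Ker

/-! ### The parameter `1` -/

section One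

variable {W : Type*} [Group W] [Fintype W] [DecidableEq W] (X : CoxLen W)

lemma Ls_one_mulVec (s : W) (a : W → ℂ) (v : W) : (Ls X.len (1 : ℂ) s *ᵥ a) v = a (s⁻¹ * v) := by
  simp only [Matrix.mulVec, dotProduct, Ls, sub_self]
  rw [Finset.sum_eq_single (s⁻¹ * v)]
  · simp
  · intro b _ hb
    have h : v ≠ s * b := by
      rintro rfl
      exact hb (by group)
    have h2 : ¬ (v = s * b) := h
    split_ifs <;> simp_all
  · simp

lemma Rs_one_mulVec (s : W) (a : W → ℂ) (v : W) : (Rs X.len (1 : ℂ) s *ᵥ a) v = a (v * s⁻¹) := by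
  simp only [Matrix.mulVec, dotProduct, Rs, sub_self]
  rw [Finset.sum_eq_single (v * s⁻¹)]
  · simp
  · intro b _ hb
    have h : v ≠ b * s := by
      rintro rfl
      exact hb (by group)
    have h2 : ¬ (v = b * s) := h
    split_ifs <;> simp_all
  · simp

lemma Lw_one_mulVec (l : List W) (a : W → ℂ) (v : W) : (Lw X.len (1 : ℂ) l *ᵥ a) v = a (l.prod⁻¹ * v) := by
  induction l generalizing a v with
  | nil => simp [Lw]
  | cons s l ih =>
    have e1 : Lw X.len (1 : ℂ) (s :: l) = Ls X.len (1 : ℂ) s * Lw X.len (1 : ℂ) l := by simp [Lw]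
    rw [e1, ← Matrix.mulVec_mulVec, Ls_one_mulVec, ih, List.prod_cons]
    congr 1
    group

/-- Involutions: the right action along a word. -/
lemma Rw_one_mulVec (l : List W) (hl : ∀ x ∈ l, x ∈ X.S) (a : W → ℂ) (v : W) : (Rw X.len (1 : ℂ) l *ᵥ a) v = a (v * l.prod) := by
  induction l generalizing a v with
  | nil => simp [Rw]
  | cons s l ih =>
    have e1 : Rw X.len (1 : ℂ) (s :: l) = Rs X.len (1 : ℂ) s * Rw X.len (1 : ℂ) l := by simp [Rw]
    rw [e1, ← Matrix.mulVec_mulVec, Rs_one_mulVec, ih (fun x hx => hl x (List.mem_cons_of_mem _ hx)), List.prod_cons,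
      X.inv_S (hl s (by simp)), mul_assoc]

/-- The action of the Higman operator at `1`. -/
lemma Hig_one_mulVec (wd : W → List W) (hwd : ∀ w, (∀ x ∈ wd w, x ∈ X.S) ∧ (wd w).prod = w) (a : W → ℂ) (v : W) :
    (Hig X.len wd (1 : ℂ) *ᵥ a) v = ∑ w, a (w⁻¹ * v * w) := by
  simp only [Hig, one_pow, one_smul, Matrix.sum_mulVec, Finset.sum_apply]
  refine Finset.sum_congr rfl fun w _ => ?_
  rw [← Matrix.mulVec_mulVec, Lw_one_mulVec, Rw_one_mulVec X _ (hwd w).1, (hwd w).2]

/-- The kernel and the range at `1`. -/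
theorem ker_eq_range_one {S : Type*} [Fintype S] [DecidableEq S] (σ : S → W) (hσ : ∀ x ∈ X.S, ∃ s, σ s = x) (hσ' : ∀ s, σ s ∈ X.S)
    (wd : W → List W) (hwd : ∀ w, (∀ x ∈ wd w, x ∈ X.S) ∧ (wd w).prod = w) :
    LinearMap.ker (Cm X.len S σ (1 : ℂ)).mulVecLin = LinearMap.range (Hig X.len wd (1 : ℂ)).mulVecLin := by
  ext a
  rw [mem_ker_Cm, LinearMap.mem_range]
  have hS : ∀ x ∈ X.S, ∀ b : W → ℂ, (Ls X.len (1 : ℂ) x *ᵥ b = Rs X.len (1 : ℂ) x *ᵥ b) ↔ ∀ v, b (x⁻¹ * v) = b (v * x⁻¹) := by
    intro x _ b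
    constructor
    · intro h v
      have := congrFun h v
      rwa [Ls_one_mulVec, Rs_one_mulVec] at this
    · intro h
      funext v
      rw [Ls_one_mulVec, Rs_one_mulVec, h]
  constructor
  · intro h
    -- a is a class function
    have h1 : ∀ x ∈ X.S, ∀ v, a (x⁻¹ * v * x) = a v := by
      intro x hx v
      obtain ⟨s, rfl⟩ := hσ x hx
      have h2 := (hS _ (hσ' s) a).1 (h s) (v * σ s)
      rw [X.inv_S hx] at h2 ⊢
      rw [show σ s * (v * σ s) = σ s * v * σ s by group, mul_assoc v, X.sq _ hx, mul_one] at h2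
      exact h2
    have h2 : ∀ l : List W, (∀ x ∈ l, x ∈ X.S) → ∀ v, a (l.prod⁻¹ * v * l.prod) = a v := by
      intro l
      induction l with
      | nil => simp
      | cons x l ih =>
        intro hl v
        have e : (x :: l).prod⁻¹ * v * (x :: l).prod = l.prod⁻¹ * (x⁻¹ * v * x) * l.prod := by
          simp only [List.prod_cons]
          group
        rw [e, ih (fun y hy => hl y (List.mem_cons_of_mem _ hy)), h1 x (hl x (by simp))]
    have h3 : ∀ w v, a (w⁻¹ * v * w) = a v := by
      intro w v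
      have := h2 (wd w) (hwd w).1 v
      rwa [(hwd w).2] at this
    refine ⟨(Fintype.card W : ℂ)⁻¹ • a, ?_⟩
    funext v
    rw [Matrix.mulVecLin_apply, Hig_one_mulVec X wd hwd]
    simp only [Pi.smul_apply, smul_eq_mul, h3]
    rw [Finset.sum_const, Finset.card_univ, nsmul_eq_mul, ← mul_assoc, mul_inv_cancel₀ (by exact_mod_cast Fintype.card_ne_zero), one_mul]
  · rintro ⟨b, rfl⟩ s
    rw [hS _ (hσ' s)]
    intro v
    simp only [Matrix.mulVecLin_apply, Hig_one_mulVec X wd hwd]
    refine Fintype.sum_equiv (Equiv.mulLeft (σ s)) _ _ fun w => ?_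
    simp only [Equiv.coe_mulLeft]
    congr 1
    group

end One

end Cfsg.Agent.Lib.Hecke
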