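/-
The Iwahori-Hecke algebra of a group with a labelling of its double cosets by a Coxeter group, inside the group algebra.
-/
import Cfsg.Agent.Lib.Hecke.Cent
import Cfsg.Agent.Lib.Hecke.Family

set_option autoImplicit false

namespace Cfsg.Agent.Lib.Hecke

open MonoidAlgebra Module Matrix
open Cfsg (classInner IsCharacter IsIrrCharacter IrrCharacter IsClassFunction fixedPointCharacter)
open Cfsg.Agent.Lib.BNSt

universe u v

/-- A labelling of the double cosets of `B` by a Coxeter group, with the parameter `q`. -/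
structure HD (G : Type u) [Group G] (W : Type v) [Group W] where
  /-- the Borel subgroup -/
  B : Subgroup G
  /-- the Coxeter structure -/
  X : CoxLen W
  /-- the label -/
  lab : G → W
  surj : Function.Surjective lab
  lab_eq_iff : ∀ g g', lab g = lab g' ↔ ∃ b ∈ B, ∃ b' ∈ B, g' = b * g * b'
  lab_inv : ∀ g, lab g⁻¹ = (lab g)⁻¹
  lab_one : lab 1 = 1
  lab_add : ∀ g h, X.len (lab g * lab h) = X.len (lab g) + X.len (lab h) → lab (g * h) = lab g * lab h
  /-- representatives of the generators -/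
  sd : W → G
  lab_sd : ∀ s ∈ X.S, lab (sd s) = s
  step : ∀ s ∈ X.S, ∀ g, lab (sd s * g) = s * lab g ∨ lab (sd s * g) = lab g
  /-- the parameter -/
  q : ℕ
  q_pos : 0 < q
  q_count : ∀ s ∈ X.S, q * Nat.card {b : B // lab (sd s * b * sd s) = 1} = Nat.card B

namespace HD

variable {G : Type u} [Group G] {W : Type v} [Group W] (D : HD G W)

lemma lab_B_mul {b : G} (hb : b ∈ D.B) (g : G) : D.lab (b * g) = D.lab g :=
  ((D.lab_eq_iff g (b * g)).2 ⟨b, hb, 1, one_mem _, by simp⟩).symm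

lemma lab_mul_B {b : G} (hb : b ∈ D.B) (g : G) : D.lab (g * b) = D.lab g :=
  ((D.lab_eq_iff g (g * b)).2 ⟨1, one_mem _, b, hb, by simp⟩).symm

lemma mem_B_iff (g : G) : D.lab g = 1 ↔ g ∈ D.B := by
  constructor
  · intro h
    obtain ⟨b, hb, b', hb', e⟩ := (D.lab_eq_iff 1 g).1 (by rw [h, D.lab_one])
    rw [e, mul_one]
    exact mul_mem hb hb'
  · intro h
    have := D.lab_mul_B h 1
    rwa [one_mul, D.lab_one] at this

variable [Fintype G] [Fintype W] [DecidableEq W] [Fintype D.B]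

/-- The idempotent. -/
noncomputable abbrev e₀ : MonoidAlgebra ℂ G := ee D.B

/-- The double coset element. -/
noncomputable def Dn (g : G) : MonoidAlgebra ℂ G := D.e₀ * oo g * D.e₀

omit [Fintype W] [DecidableEq W] in
lemma Dn_of_lab {g g' : G} (h : D.lab g = D.lab g') : D.Dn g = D.Dn g' := by
  obtain ⟨b, hb, b', hb', rfl⟩ := (D.lab_eq_iff g g').1 h
  rw [Dn, Dn, oo_mul, oo_mul]
  have e1 : D.e₀ * (oo b * oo g * oo b') * D.e₀ = (D.e₀ * oo b) * oo g * (oo b' * D.e₀) := by
    simp only [mul_assoc]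
  rw [e1, ee_mul_oo hb, oo_mul_ee hb']

/-- The element of a label. -/
noncomputable def DD (w : W) : MonoidAlgebra ℂ G := D.Dn (Function.surjInv D.surj w)

omit [Fintype W] [DecidableEq W] in
lemma Dn_eq (g : G) : D.Dn g = D.DD (D.lab g) :=
  D.Dn_of_lab (Function.surjInv_eq D.surj _).symm

omit [Fintype W] [DecidableEq W] in
lemma DD_one : D.DD 1 = D.e₀ := by
  rw [← D.lab_one, ← Dn_eq, Dn, oo_one, mul_one, ee_mul_ee]

omit [Fintype W] [DecidableEq W] in
lemma e_mul_Dn (g : G) : D.e₀ * D.Dn g = D.Dn g := by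
  rw [Dn, ← mul_assoc, ← mul_assoc, ee_mul_ee]

omit [Fintype W] [DecidableEq W] in
lemma Dn_mul_e (g : G) : D.Dn g * D.e₀ = D.Dn g := by
  rw [Dn, mul_assoc, ee_mul_ee]

omit [Fintype W] [DecidableEq W] in
lemma e_mul_DD (w : W) : D.e₀ * D.DD w = D.DD w := D.e_mul_Dn _

omit [Fintype W] [DecidableEq W] in
lemma DD_mul_e (w : W) : D.DD w * D.e₀ = D.DD w := D.Dn_mul_e _

omit [Fintype W] [DecidableEq W] in
lemma Dn_mul (g h : G) : D.Dn g * D.Dn h = (Nat.card D.B : ℂ)⁻¹ • ∑ b : D.B, D.Dn (g * b * h) := by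
  have e1 : D.Dn g * D.Dn h = D.e₀ * oo g * (D.e₀ * oo h * D.e₀) := by
    rw [Dn, mul_assoc, e_mul_Dn]
    rfl
  have e2 : D.e₀ * oo g * (D.e₀ * oo h * D.e₀) = D.e₀ * oo g * D.e₀ * oo h * D.e₀ := by
    simp only [mul_assoc]
  rw [e1, e2]
  conv_lhs => rw [show D.e₀ * oo g * D.e₀ * oo h * D.e₀ = D.e₀ * (oo g * ((Nat.card D.B : ℂ)⁻¹ • ∑ b : D.B, oo (b : G)) * oo h) * D.e₀ by
    simp only [mul_assoc]
    rfl]
  rw [mul_smul_comm, smul_mul_assoc, mul_smul_comm, smul_mul_assoc]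
  congr 1
  rw [Finset.mul_sum, Finset.sum_mul, Finset.mul_sum, Finset.sum_mul]
  refine Finset.sum_congr rfl fun b _ => ?_
  rw [Dn, oo_mul, oo_mul]

omit [Fintype W] [DecidableEq W] in
/-- Multiplicativity when lengths add. -/
lemma DD_mul_add {v w : W} (h : D.X.len (v * w) = D.X.len v + D.X.len w) : D.DD v * D.DD w = D.DD (v * w) := by
  obtain ⟨g, rfl⟩ := D.surj v
  obtain ⟨g', rfl⟩ := D.surj w
  rw [← Dn_eq, ← Dn_eq, Dn_mul]
  have e : ∀ b : D.B, D.Dn (g * b * g') = D.DD (D.lab g * D.lab g') := by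
    intro b
    rw [Dn_eq, mul_assoc]
    congr 1
    rw [D.lab_add g (b * g') (by rw [D.lab_B_mul b.2]; exact h), D.lab_B_mul b.2]
  simp only [e]
  rw [Finset.sum_const, Finset.card_univ, ← Nat.card_eq_fintype_card, ← Nat.cast_smul_eq_nsmul ℂ, smul_smul,
    inv_mul_cancel₀ card_B_ne, one_smul]

omit [Fintype W] [DecidableEq W] in
/-- The quadratic relation. -/
lemma DD_sq {s : W} (hs : s ∈ D.X.S) :
    D.DD s * D.DD s = (D.q : ℂ)⁻¹ • D.e₀ + (1 - (D.q : ℂ)⁻¹) • D.DD s := by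
  classical
  have hq : (D.q : ℂ) ≠ 0 := by exact_mod_cast D.q_pos.ne'
  have hDs : D.DD s = D.Dn (D.sd s) := by rw [Dn_eq, D.lab_sd s hs]
  rw [hDs, Dn_mul]
  have e : ∀ b : D.B, D.Dn (D.sd s * b * D.sd s) = if D.lab (D.sd s * b * D.sd s) = 1 then D.e₀ else D.Dn (D.sd s) := by
    intro b
    split_ifs with h
    · rw [Dn_eq, h, DD_one]
    · have h1 : D.lab (D.sd s * b * D.sd s) = s := by
        rw [mul_assoc]
        rcases D.step s hs (b * D.sd s) with h2 | h2
        · exfalso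
          apply h
          rw [mul_assoc, h2, D.lab_B_mul b.2, D.lab_sd s hs, D.X.sq s hs]
        · rw [h2, D.lab_B_mul b.2, D.lab_sd s hs]
      rw [Dn_eq, h1, hDs]
  simp only [e]
  rw [Finset.sum_ite, Finset.sum_const, Finset.sum_const]
  have hc : (Finset.univ.filter fun b : D.B => D.lab (D.sd s * b * D.sd s) = 1).card = Nat.card {b : D.B // D.lab (D.sd s * b * D.sd s) = 1} := by
    rw [Nat.card_eq_fintype_card, Fintype.card_subtype]
  have hc2 : (Finset.univ.filter fun b : D.B => ¬ D.lab (D.sd s * b * D.sd s) = 1).card + Nat.card {b : D.B // D.lab (D.sd s * b * D.sd s) = 1} = Nat.card D.B := by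
    rw [← hc, add_comm, Finset.card_filter_add_card_filter_not, Finset.card_univ, Nat.card_eq_fintype_card]
  have h3 := D.q_count s hs
  have hB : (Nat.card D.B : ℂ) ≠ 0 := card_B_ne
  have h4 : (Nat.card {b : D.B // D.lab (D.sd s * b * D.sd s) = 1} : ℂ) = (Nat.card D.B : ℂ) * (D.q : ℂ)⁻¹ := by
    rw [← h3]
    push_cast
    field_simp
  have h5 : ((Finset.univ.filter fun b : D.B => ¬ D.lab (D.sd s * b * D.sd s) = 1).card : ℂ) = (Nat.card D.B : ℂ) * (1 - (D.q : ℂ)⁻¹) := by
    have h6 : ((Finset.univ.filter fun b : D.B => ¬ D.lab (D.sd s * b * D.sd s) = 1).card : ℂ) + (Nat.card {b : D.B // D.lab (D.sd s * b * D.sd s) = 1} : ℂ) = (Nat.card D.B : ℂ) := by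
      exact_mod_cast hc2
    rw [h4] at h6
    linear_combination h6
  rw [hc, ← Nat.cast_smul_eq_nsmul ℂ, ← Nat.cast_smul_eq_nsmul ℂ, h4, h5, smul_add, smul_smul, smul_smul, ← mul_assoc, ← mul_assoc,
    inv_mul_cancel₀ hB, one_mul, one_mul]

omit [Fintype W] [DecidableEq W] in
/-- Left multiplication by a generator, going down. -/
lemma DD_down {s w : W} (hs : s ∈ D.X.S) (h : D.X.len (s * w) < D.X.len w) :
    D.DD s * D.DD w = (D.q : ℂ)⁻¹ • D.DD (s * w) + (1 - (D.q : ℂ)⁻¹) • D.DD w := by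
  have e : s * (s * w) = w := by rw [← mul_assoc, D.X.sq s hs, one_mul]
  have h1 := D.X.step s hs (s * w)
  rw [e] at h1
  have h2 : D.X.len (s * (s * w)) = D.X.len s + D.X.len (s * w) := by
    rw [e, D.X.len_S hs]
    omega
  have h3 := D.DD_mul_add h2
  rw [e] at h3
  rw [← h3, ← mul_assoc, D.DD_sq hs, add_mul, smul_mul_assoc, smul_mul_assoc, D.e_mul_DD]

omit [Fintype W] [DecidableEq W] in
/-- Right multiplication by a generator, going down. -/
lemma DD_down_r {s w : W} (hs : s ∈ D.X.S) (h : D.X.len (w * s) < D.X.len w) :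
    D.DD w * D.DD s = (D.q : ℂ)⁻¹ • D.DD (w * s) + (1 - (D.q : ℂ)⁻¹) • D.DD w := by
  have e : w * s * s = w := by rw [mul_assoc, D.X.sq s hs, mul_one]
  have h1 := D.X.step_r hs (w * s)
  rw [e] at h1
  have h2 : D.X.len (w * s * s) = D.X.len (w * s) + D.X.len s := by
    rw [e, D.X.len_S hs]
    omega
  have h3 := D.DD_mul_add h2
  rw [e] at h3
  rw [← h3, mul_assoc, D.DD_sq hs, mul_add, mul_smul_comm, mul_smul_comm, D.DD_mul_e]

/-- The standard basis. -/
noncomputable def TT (w : W) : MonoidAlgebra ℂ G := ((D.q : ℂ) ^ D.X.len w) • D.DD w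

omit [Fintype W] [DecidableEq W] in
lemma TT_up {s w : W} (hs : s ∈ D.X.S) (h : D.X.len w < D.X.len (s * w)) : D.TT s * D.TT w = D.TT (s * w) := by
  have h1 := D.X.step s hs w
  have h2 : D.X.len (s * w) = D.X.len w + 1 := by omega
  rw [TT, TT, TT, smul_mul_smul_comm, D.DD_mul_add (by rw [h2, D.X.len_S hs, add_comm]), h2, D.X.len_S hs]
  congr 1
  ring

omit [Fintype W] [DecidableEq W] in
lemma TT_up_r {s w : W} (hs : s ∈ D.X.S) (h : D.X.len w < D.X.len (w * s)) : D.TT w * D.TT s = D.TT (w * s) := by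
  have h1 := D.X.step_r hs w
  have h2 : D.X.len (w * s) = D.X.len w + 1 := by omega
  rw [TT, TT, TT, smul_mul_smul_comm, D.DD_mul_add (by rw [h2, D.X.len_S hs]), h2, D.X.len_S hs]
  congr 1
  ring

omit [Fintype W] [DecidableEq W] in
lemma TT_down {s w : W} (hs : s ∈ D.X.S) (h : ¬ D.X.len w < D.X.len (s * w)) :
    D.TT s * D.TT w = (D.q : ℂ) • D.TT (s * w) + ((D.q : ℂ) - 1) • D.TT w := by
  have hq : (D.q : ℂ) ≠ 0 := by exact_mod_cast D.q_pos.ne'
  have h1 := D.X.step s hs w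
  have h2 : D.X.len w = D.X.len (s * w) + 1 := by omega
  rw [TT, TT, TT, smul_mul_smul_comm, D.DD_down hs (by omega), smul_add, smul_smul, smul_smul, smul_smul, smul_smul, D.X.len_S hs, h2]
  congr 1
  · congr 1
    field_simp
    ring
  · congr 1
    field_simp

omit [Fintype W] [DecidableEq W] in
lemma TT_down_r {s w : W} (hs : s ∈ D.X.S) (h : ¬ D.X.len w < D.X.len (w * s)) :
    D.TT w * D.TT s = (D.q : ℂ) • D.TT (w * s) + ((D.q : ℂ) - 1) • D.TT w := by
  have hq : (D.q : ℂ) ≠ 0 := by exact_mod_cast D.q_pos.ne'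
  have h1 := D.X.step_r hs w
  have h2 : D.X.len w = D.X.len (w * s) + 1 := by omega
  rw [TT, TT, TT, smul_mul_smul_comm, D.DD_down_r hs (by omega), smul_add, smul_smul, smul_smul, smul_smul, smul_smul, D.X.len_S hs, h2]
  congr 1
  · congr 1
    field_simp
    ring
  · congr 1
    field_simp

omit [Fintype W] in
lemma TT_L [Fintype W] {s : W} (hs : s ∈ D.X.S) (w : W) :
    D.TT s * D.TT w = ∑ v, (Ls D.X.len (D.q : ℂ) s v w) • D.TT v := by
  by_cases h : D.X.len w < D.X.len (s * w)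
  · simp only [Ls, if_pos h]
    rw [D.TT_up hs h, Finset.sum_eq_single (s * w)]
    · simp
    · intro b _ hb
      simp [hb]
    · simp
  · simp only [Ls, if_neg h, add_smul, Finset.sum_add_distrib]
    rw [D.TT_down hs h, Finset.sum_eq_single (s * w), Finset.sum_eq_single w]
    · simp
    · intro b _ hb
      simp [hb]
    · simp
    · intro b _ hb
      simp [hb]
    · simp

lemma TT_R {s : W} (hs : s ∈ D.X.S) (w : W) :
    D.TT w * D.TT s = ∑ v, (Rs D.X.len (D.q : ℂ) s v w) • D.TT v := by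
  by_cases h : D.X.len w < D.X.len (w * s)
  · simp only [Rs, if_pos h]
    rw [D.TT_up_r hs h, Finset.sum_eq_single (w * s)]
    · simp
    · intro b _ hb
      simp [hb]
    · simp
  · simp only [Rs, if_neg h, add_smul, Finset.sum_add_distrib]
    rw [D.TT_down_r hs h, Finset.sum_eq_single (w * s), Finset.sum_eq_single w]
    · simp
    · intro b _ hb
      simp [hb]
    · simp
    · intro b _ hb
      simp [hb]
    · simp

/-- The identification of the functions on the Coxeter group with the corner. -/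
noncomputable def Phi : (W → ℂ) →ₗ[ℂ] MonoidAlgebra ℂ G where
  toFun a := ∑ w, a w • D.TT w
  map_add' a b := by
    simp only [Pi.add_apply, add_smul, Finset.sum_add_distrib]
  map_smul' c a := by
    simp only [Pi.smul_apply, smul_eq_mul, mul_smul, RingHom.id_apply, Finset.smul_sum]

lemma Phi_apply (a : W → ℂ) : D.Phi a = ∑ w, a w • D.TT w := rfl

lemma Phi_Ls {s : W} (hs : s ∈ D.X.S) (a : W → ℂ) : D.Phi (Ls D.X.len (D.q : ℂ) s *ᵥ a) = D.TT s * D.Phi a := by
  simp only [Phi_apply, Matrix.mulVec, dotProduct, Finset.sum_smul, Finset.mul_sum, mul_smul_comm]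
  rw [Finset.sum_comm]
  refine Finset.sum_congr rfl fun w _ => ?_
  rw [D.TT_L hs, Finset.smul_sum]
  refine Finset.sum_congr rfl fun v _ => ?_
  rw [smul_smul, mul_comm]

lemma Phi_Rs {s : W} (hs : s ∈ D.X.S) (a : W → ℂ) : D.Phi (Rs D.X.len (D.q : ℂ) s *ᵥ a) = D.Phi a * D.TT s := by
  simp only [Phi_apply, Matrix.mulVec, dotProduct, Finset.sum_smul, Finset.sum_mul, smul_mul_assoc]
  rw [Finset.sum_comm]
  refine Finset.sum_congr rfl fun w _ => ?_
  rw [D.TT_R hs, Finset.smul_sum]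
  refine Finset.sum_congr rfl fun v _ => ?_
  rw [smul_smul, mul_comm]

lemma Phi_Lw (l : List W) (hl : ∀ x ∈ l, x ∈ D.X.S) (a : W → ℂ) :
    D.Phi (Lw D.X.len (D.q : ℂ) l *ᵥ a) = (l.map D.TT).prod * D.Phi a := by
  induction l generalizing a with
  | nil => simp [Lw]
  | cons s l ih =>
    have e1 : Lw D.X.len (D.q : ℂ) (s :: l) = Ls D.X.len (D.q : ℂ) s * Lw D.X.len (D.q : ℂ) l := by simp [Lw]
    rw [e1, ← Matrix.mulVec_mulVec, D.Phi_Ls (hl s (by simp)), ih (fun x hx => hl x (List.mem_cons_of_mem _ hx)),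
      List.map_cons, List.prod_cons, mul_assoc]

lemma Phi_Rw (l : List W) (hl : ∀ x ∈ l, x ∈ D.X.S) (a : W → ℂ) :
    D.Phi (Rw D.X.len (D.q : ℂ) l *ᵥ a) = D.Phi a * (l.reverse.map D.TT).prod := by
  induction l generalizing a with
  | nil => simp [Rw]
  | cons s l ih =>
    have e1 : Rw D.X.len (D.q : ℂ) (s :: l) = Rs D.X.len (D.q : ℂ) s * Rw D.X.len (D.q : ℂ) l := by simp [Rw]
    rw [e1, ← Matrix.mulVec_mulVec, D.Phi_Rs (hl s (by simp)), ih (fun x hx => hl x (List.mem_cons_of_mem _ hx)),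
      List.reverse_cons, List.map_append, List.prod_append, mul_assoc]
    simp

omit [Fintype W] [DecidableEq W] in
lemma e_mul_TT (w : W) : D.e₀ * D.TT w = D.TT w := by
  rw [TT, mul_smul_comm, e_mul_DD]

omit [Fintype W] [DecidableEq W] in
lemma TT_mul_e (w : W) : D.TT w * D.e₀ = D.TT w := by
  rw [TT, smul_mul_assoc, DD_mul_e]

omit [Fintype W] [DecidableEq W] in
lemma TT_one : D.TT 1 = D.e₀ := by
  rw [TT, D.DD_one, D.X.len_one, pow_zero, one_smul]

omit [Fintype W] [DecidableEq W] in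
/-- A reduced word gives a product of the basis elements. -/
lemma TT_word (l : List W) (hl : ∀ x ∈ l, x ∈ D.X.S) (hr : D.X.len l.prod = l.length) {y : MonoidAlgebra ℂ G}
    (hy : D.e₀ * y = y) : (l.map D.TT).prod * y = D.TT l.prod * y := by
  induction l with
  | nil => simp only [List.map_nil, List.prod_nil, one_mul, D.TT_one, hy]
  | cons s l ih =>
    have hs := hl s (by simp)
    have hl' : ∀ x ∈ l, x ∈ D.X.S := fun x hx => hl x (List.mem_cons_of_mem _ hx)
    have h1 := D.X.len_prod_le hl'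
    rw [List.prod_cons, List.length_cons] at hr
    have h2 := D.X.step s hs l.prod
    have h3 : D.X.len l.prod = l.length := by omega
    rw [List.map_cons, List.prod_cons, mul_assoc, ih hl' h3, List.prod_cons, ← mul_assoc, D.TT_up hs (by omega)]

omit [Fintype W] [DecidableEq W] in
lemma e_mul_prod (l : List W) : D.e₀ * (l.map D.TT).prod = (l.map D.TT).prod * D.e₀ := by
  induction l with
  | nil => simp
  | cons s l ih =>
    rw [List.map_cons, List.prod_cons, ← mul_assoc, D.e_mul_TT, mul_assoc, ← ih, ← mul_assoc, D.TT_mul_e]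

omit [Fintype W] [DecidableEq W] in
lemma TT_word_r (l : List W) (hl : ∀ x ∈ l, x ∈ D.X.S) (hr : D.X.len l.prod = l.length) {y : MonoidAlgebra ℂ G}
    (hy : y * D.e₀ = y) : y * (l.map D.TT).prod = y * D.TT l.prod := by
  have h1 := D.TT_word l hl hr (ee_mul_ee D.B)
  rw [D.TT_mul_e] at h1
  conv_lhs => rw [← hy]
  rw [mul_assoc, D.e_mul_prod, h1]

omit [Fintype G] [Fintype W] [DecidableEq W] [Fintype D.B] in
/-- Reversing a word in involutions. -/
lemma prod_reverse_S (l : List W) (hl : ∀ x ∈ l, x ∈ D.X.S) : l.reverse.prod = l.prod⁻¹ := by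
  induction l with
  | nil => simp
  | cons s l ih =>
    rw [List.reverse_cons, List.prod_append, ih (fun x hx => hl x (List.mem_cons_of_mem _ hx)), List.prod_singleton, List.prod_cons,
      _root_.mul_inv_rev, D.X.inv_S (hl s (by simp))]

/-! ### Coefficients -/

omit [Fintype W] [DecidableEq W] in
lemma Dn_double (g : G) : D.Dn g = ((Nat.card D.B : ℂ)⁻¹ * (Nat.card D.B : ℂ)⁻¹) • ∑ b : D.B, ∑ b' : D.B, oo ((b : G) * g * b') := by
  have e0 : D.Dn g = ee D.B * oo g * ee D.B := rfl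
  rw [e0, ee, smul_mul_assoc, smul_mul_assoc, mul_smul_comm, smul_smul, Finset.sum_mul, Finset.sum_mul]
  simp only [Finset.mul_sum]
  simp only [oo_mul]

omit [Fintype W] [DecidableEq W] in
/-- The support. -/
lemma coeff_Dn_eq_zero {g x : G} (h : D.lab x ≠ D.lab g) : (D.Dn g).coeff x = 0 := by
  classical
  rw [Dn_double, coeff_smul_apply]
  have h1 : (∑ b : D.B, ∑ b' : D.B, oo ((b : G) * g * b')).coeff x = 0 := by
    simp only [coeff_sum, Finsupp.finsetSum_apply]
    refine Finset.sum_eq_zero fun b _ => Finset.sum_eq_zero fun b' _ => ?_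
    have hne : (b : G) * g * b' ≠ x := by
      rintro rfl
      exact h (by rw [D.lab_mul_B b'.2, D.lab_B_mul b.2])
    simp [oo, coeff_single, Finsupp.single_apply, hne]
  rw [h1, smul_zero]

omit [Fintype W] [DecidableEq W] in
lemma coeff_DD_eq_zero {w : W} {x : G} (h : D.lab x ≠ w) : (D.DD w).coeff x = 0 := by
  obtain ⟨g, rfl⟩ := D.surj w
  rw [← Dn_eq]
  exact D.coeff_Dn_eq_zero h

omit [Fintype W] [DecidableEq W] in
/-- The augmentation. -/
lemma aug_Dn (g : G) : xt (fun _ => (1 : ℂ)) (D.Dn g) = 1 := by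
  rw [Dn_double, map_smul, map_sum]
  simp only [map_sum, xt_oo]
  simp only [Finset.sum_const, Finset.card_univ, nsmul_eq_mul, mul_one, smul_eq_mul]
  rw [← Nat.card_eq_fintype_card]
  have := card_B_ne (B := D.B)
  field_simp

omit [Fintype W] [DecidableEq W] in
lemma DD_ne_zero (w : W) : D.DD w ≠ 0 := by
  intro h
  have h1 := D.aug_Dn (Function.surjInv D.surj w)
  change xt (fun _ => (1 : ℂ)) (D.DD w) = 1 at h1
  rw [h, map_zero] at h1
  exact zero_ne_one h1

omit [Fintype W] [DecidableEq W] in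
lemma oo_mul_DD {b : G} (hb : b ∈ D.B) (w : W) : oo b * D.DD w = D.DD w := by
  rw [← D.e_mul_DD w, ← mul_assoc, oo_mul_ee hb]

omit [Fintype W] [DecidableEq W] in
lemma DD_mul_oo {b : G} (hb : b ∈ D.B) (w : W) : D.DD w * oo b = D.DD w := by
  rw [← D.DD_mul_e w, mul_assoc, ee_mul_oo hb]

omit [Fintype W] [DecidableEq W] in
/-- Constancy on double cosets. -/
lemma coeff_DD_const (w : W) {x x' : G} (h : D.lab x = D.lab x') : (D.DD w).coeff x = (D.DD w).coeff x' := by
  obtain ⟨b, hb, b', hb', rfl⟩ := (D.lab_eq_iff x x').1 h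
  have e : D.DD w = oo b⁻¹ * (D.DD w * oo b'⁻¹) := by
    rw [D.DD_mul_oo (inv_mem hb'), D.oo_mul_DD (inv_mem hb)]
  have h1 : (D.DD w).coeff x = (oo b⁻¹ * (D.DD w * oo b'⁻¹)).coeff x := by rw [← e]
  rw [coeff_oo_mul, coeff_mul_oo, inv_inv, inv_inv] at h1
  exact h1

/-- The size of a double coset. -/
noncomputable def nn (w : W) : ℕ := (Finset.univ.filter fun g => D.lab g = w).card

omit [Fintype W] [Fintype D.B] in
lemma nn_pos (w : W) : 0 < D.nn w := by
  obtain ⟨g, rfl⟩ := D.surj w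
  exact Finset.card_pos.2 ⟨g, by simp⟩

omit [Fintype W] in
/-- The coefficients of `D_w`. -/
lemma coeff_DD (w : W) {x : G} (hx : D.lab x = w) : (D.DD w).coeff x = (D.nn w : ℂ)⁻¹ := by
  have h1 : xt (fun _ => (1 : ℂ)) (D.DD w) = 1 := D.aug_Dn _
  rw [xt_apply] at h1
  simp only [mul_one] at h1
  rw [← Finset.sum_filter_add_sum_filter_not Finset.univ (fun g => D.lab g = w)] at h1
  have h2 : ∑ g ∈ Finset.univ.filter (fun g => ¬ D.lab g = w), (D.DD w).coeff g = 0 :=
    Finset.sum_eq_zero fun g hg => D.coeff_DD_eq_zero (Finset.mem_filter.1 hg).2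
  have h3 : ∑ g ∈ Finset.univ.filter (fun g => D.lab g = w), (D.DD w).coeff g = (D.nn w : ℂ) * (D.DD w).coeff x := by
    rw [Finset.sum_congr rfl (g := fun _ => (D.DD w).coeff x) fun g hg =>
      D.coeff_DD_const w (by rw [(Finset.mem_filter.1 hg).2, hx]), Finset.sum_const, nsmul_eq_mul]
    rfl
  rw [h2, add_zero, h3] at h1
  exact eq_inv_of_mul_eq_one_right h1

omit [Fintype W] [Fintype D.B] in
lemma nn_inv (w : W) : D.nn w⁻¹ = D.nn w := by
  refine Finset.card_bij (fun g _ => g⁻¹) ?_ (fun a _ b _ h => inv_injective h) ?_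
  · intro g hg
    simp only [Finset.mem_filter, Finset.mem_univ, true_and] at hg ⊢
    rw [D.lab_inv, hg, inv_inv]
  · intro g hg
    simp only [Finset.mem_filter, Finset.mem_univ, true_and] at hg
    exact ⟨g⁻¹, by simp [D.lab_inv, hg], inv_inv g⟩

omit [Fintype W] in
lemma nn_one : D.nn 1 = Nat.card D.B := by
  rw [nn, Nat.card_eq_fintype_card]
  rw [← Fintype.card_subtype]
  refine Fintype.card_congr (Equiv.subtypeEquivRight fun g => ?_)
  exact D.mem_B_iff g

omit [Fintype W] [DecidableEq W] [Fintype D.B] in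
lemma coeff_mul_one (a b : MonoidAlgebra ℂ G) : (a * b).coeff 1 = ∑ g, a.coeff g * b.coeff g⁻¹ := by
  conv_lhs => rw [eq_mkA a]
  rw [Finset.sum_mul, coeff_sum, Finsupp.finsetSum_apply]
  refine Finset.sum_congr rfl fun g _ => ?_
  rw [smul_mul_assoc, coeff_smul_apply, coeff_oo_mul, mul_one, smul_eq_mul]

omit [Fintype W] [DecidableEq W] [Fintype D.B] in
lemma tau_comm (a b : MonoidAlgebra ℂ G) : (a * b).coeff 1 = (b * a).coeff 1 := by
  rw [coeff_mul_one, coeff_mul_one]
  refine Fintype.sum_equiv (Equiv.inv G) _ _ fun g => ?_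
  simp only [Equiv.inv_apply, inv_inv]
  rw [mul_comm]

omit [Fintype W] in
/-- The trace form. -/
lemma tau_DD (w v : W) : (D.DD w * D.DD v).coeff 1 = if v = w⁻¹ then (D.nn w : ℂ)⁻¹ else 0 := by
  rw [coeff_mul_one]
  split_ifs with h
  · subst h
    rw [← Finset.sum_filter_add_sum_filter_not Finset.univ (fun g => D.lab g = w)]
    have h2 : ∑ g ∈ Finset.univ.filter (fun g => ¬ D.lab g = w), (D.DD w).coeff g * (D.DD w⁻¹).coeff g⁻¹ = 0 :=
      Finset.sum_eq_zero fun g hg => by rw [D.coeff_DD_eq_zero (Finset.mem_filter.1 hg).2, zero_mul]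
    have h3 : ∑ g ∈ Finset.univ.filter (fun g => D.lab g = w), (D.DD w).coeff g * (D.DD w⁻¹).coeff g⁻¹ = (D.nn w : ℂ) * ((D.nn w : ℂ)⁻¹ * (D.nn w : ℂ)⁻¹) := by
      rw [Finset.sum_congr rfl (g := fun _ => (D.nn w : ℂ)⁻¹ * (D.nn w : ℂ)⁻¹) fun g hg => by
        have hg' := (Finset.mem_filter.1 hg).2
        rw [D.coeff_DD w hg', D.coeff_DD w⁻¹ (by rw [D.lab_inv, hg']), D.nn_inv]]
      rw [Finset.sum_const, nsmul_eq_mul]
      rfl
    have hn : (D.nn w : ℂ) ≠ 0 := by exact_mod_cast (D.nn_pos w).ne'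
    rw [h2, add_zero, h3]
    field_simp
  · refine Finset.sum_eq_zero fun g _ => ?_
    by_cases hg : D.lab g = w
    · rw [D.coeff_DD_eq_zero (x := g⁻¹) (w := v) (by
        rw [D.lab_inv, hg]
        exact fun e => h e.symm), mul_zero]
    · rw [D.coeff_DD_eq_zero hg, zero_mul]

omit [Fintype W] in
/-- The growth of the double cosets. -/
lemma nn_up {s w : W} (hs : s ∈ D.X.S) (h : D.X.len w < D.X.len (s * w)) : D.nn (s * w) = D.q * D.nn w := by
  have hq : (D.q : ℂ) ≠ 0 := by exact_mod_cast D.q_pos.ne'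
  have h1 := D.X.step s hs w
  have h2 : D.X.len (s * w) = D.X.len w + 1 := by omega
  have e1 : D.DD (s * w) = D.DD s * D.DD w := (D.DD_mul_add (by rw [h2, D.X.len_S hs, add_comm])).symm
  have hinv : (s * w)⁻¹ = w⁻¹ * s := by rw [_root_.mul_inv_rev, D.X.inv_S hs]
  have hlen : D.X.len (w⁻¹ * s) = D.X.len w⁻¹ + D.X.len s := by
    rw [← hinv, D.X.len_inv, D.X.len_inv, h2, D.X.len_S hs]
  have e2 : D.DD (s * w)⁻¹ = D.DD w⁻¹ * D.DD s := by rw [hinv, D.DD_mul_add hlen]
  have h3 := D.tau_DD (s * w) (s * w)⁻¹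
  rw [if_pos rfl, e1, e2, mul_assoc, tau_comm, mul_assoc, mul_assoc, D.DD_sq hs, mul_add, mul_add, mul_smul_comm, mul_smul_comm, mul_smul_comm, mul_smul_comm,
    D.DD_mul_e, D.DD_mul_add hlen, coeff_add, Finsupp.add_apply, coeff_smul_apply, coeff_smul_apply, D.tau_DD, D.tau_DD, if_pos rfl, if_neg] at h3
  · simp only [smul_eq_mul, mul_zero, add_zero] at h3
    have hn1 : (D.nn (s * w) : ℂ) ≠ 0 := by exact_mod_cast (D.nn_pos _).ne'
    have hn2 : (D.nn w : ℂ) ≠ 0 := by exact_mod_cast (D.nn_pos _).ne'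
    have h4 : (D.nn (s * w) : ℂ) = (D.q : ℂ) * (D.nn w : ℂ) := by
      field_simp at h3
      rw [h3]
    exact_mod_cast h4
  · intro e
    have : s = 1 := by simpa using e
    rw [this] at hs
    have h5 := D.X.len_S hs
    rw [D.X.len_one] at h5
    omega

omit [Fintype W] in
theorem nn_eq (w : W) : D.nn w = Nat.card D.B * D.q ^ D.X.len w := by
  generalize hk : D.X.len w = k
  induction k generalizing w with
  | zero =>
    have := (D.X.len_eq_zero w).1 hk
    subst this
    rw [D.nn_one, pow_zero, mul_one]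
  | succ k ih =>
    obtain ⟨l, hl, hp, hlen⟩ := D.X.exists_word w
    cases l with
    | nil =>
      simp at hlen
      omega
    | cons s l =>
      have hs := hl s (by simp)
      have e : s * w = l.prod := by
        rw [← hp, List.prod_cons, ← mul_assoc, D.X.sq s hs, one_mul]
      have h1 := D.X.len_prod_le (l := l) (fun x hx => hl x (List.mem_cons_of_mem _ hx))
      simp only [List.length_cons] at hlen
      have h2 : D.X.len (s * w) = k := by
        have h3 := D.X.step s hs w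
        rw [e] at h3 ⊢
        omega
      have e2 : s * (s * w) = w := by rw [← mul_assoc, D.X.sq s hs, one_mul]
      have h4 := D.nn_up hs (w := s * w) (by rw [e2, hk, h2]; omega)
      rw [e2] at h4
      rw [h4, ih _ h2, pow_succ]
      ring

/-! ### The operator of Higman -/

/-- The sandwich formula. -/
theorem ee_CC_ee {y : MonoidAlgebra ℂ G} (h1 : D.e₀ * y = y) (h2 : y * D.e₀ = y) :
    HH D.B y = ∑ w : W, (D.nn w : ℂ) • (D.DD w * y * D.DD w⁻¹) := by
  have e1 : HH D.B y = ∑ g : G, D.DD (D.lab g) * y * D.DD (D.lab g)⁻¹ := by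
    rw [HH, CC, Finset.mul_sum, Finset.sum_mul]
    refine Finset.sum_congr rfl fun g _ => ?_
    rw [← D.Dn_eq, ← D.lab_inv, ← D.Dn_eq, Dn, Dn]
    have h1' : ee D.B * y = y := h1
    have h2' : y * ee D.B = y := h2
    change ee D.B * (oo g * y * oo g⁻¹) * ee D.B = ee D.B * oo g * ee D.B * y * (ee D.B * oo g⁻¹ * ee D.B)
    rw [show ee D.B * oo g * ee D.B * y * (ee D.B * oo g⁻¹ * ee D.B) = ee D.B * oo g * (ee D.B * y) * (ee D.B * (oo g⁻¹ * ee D.B)) by simp only [mul_assoc], h1',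
      show ee D.B * oo g * y * (ee D.B * (oo g⁻¹ * ee D.B)) = ee D.B * oo g * (y * ee D.B) * (oo g⁻¹ * ee D.B) by simp only [mul_assoc], h2']
    simp only [mul_assoc]
  rw [e1, ← Finset.sum_fiberwise Finset.univ D.lab]
  refine Finset.sum_congr rfl fun w _ => ?_
  rw [Finset.sum_congr rfl (g := fun _ => D.DD w * y * D.DD w⁻¹) fun g hg => by
    rw [(Finset.mem_filter.1 hg).2], Finset.sum_const, ← Nat.cast_smul_eq_nsmul ℂ]
  rfl

end HD

end Cfsg.Agent.Lib.Hecke
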