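/-
The Iwahori-Hecke algebra inside the group algebra: its centre and the Higman operator in coordinates.
-/
import Cfsg.Agent.Lib.Hecke.Alg

set_option autoImplicit false

namespace Cfsg.Agent.Lib.Hecke

open MonoidAlgebra Module Matrix
open Cfsg (classInner IsCharacter IsIrrCharacter IrrCharacter IsClassFunction fixedPointCharacter)
open Cfsg.Agent.Lib.BNSt

universe u v

namespace HD

variable {G : Type u} [Group G] {W : Type v} [Group W] (D : HD G W)

variable [Fintype G] [Fintype W] [DecidableEq W] [Fintype D.B]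

lemma Phi_mem (a : W → ℂ) : D.Phi a ∈ cornerS D.B := by
  constructor
  · rw [Phi_apply, Finset.mul_sum]
    refine Finset.sum_congr rfl fun w _ => ?_
    rw [mul_smul_comm]
    congr 1
    exact D.e_mul_TT w
  · rw [Phi_apply, Finset.sum_mul]
    refine Finset.sum_congr rfl fun w _ => ?_
    rw [smul_mul_assoc]
    congr 1
    exact D.TT_mul_e w

lemma Phi_inj : Function.Injective D.Phi := by
  rw [injective_iff_map_eq_zero]
  intro a h
  funext w
  obtain ⟨x, rfl⟩ := D.surj w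
  have h1 : (D.Phi a).coeff x = a (D.lab x) * ((D.q : ℂ) ^ D.X.len (D.lab x) * (D.nn (D.lab x) : ℂ)⁻¹) := by
    rw [Phi_apply, coeff_sum, Finsupp.finsetSum_apply, Finset.sum_eq_single (D.lab x)]
    · rw [coeff_smul_apply, TT, coeff_smul_apply, D.coeff_DD _ rfl]
      rfl
    · intro v _ hv
      rw [coeff_smul_apply, TT, coeff_smul_apply, D.coeff_DD_eq_zero (fun e => hv e.symm)]
      simp
    · simp
  rw [h] at h1
  have hq : (D.q : ℂ) ≠ 0 := by exact_mod_cast D.q_pos.ne'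
  have hn : (D.nn (D.lab x) : ℂ) ≠ 0 := by exact_mod_cast (D.nn_pos _).ne'
  have h2 : (D.q : ℂ) ^ D.X.len (D.lab x) * (D.nn (D.lab x) : ℂ)⁻¹ ≠ 0 := mul_ne_zero (pow_ne_zero _ hq) (inv_ne_zero hn)
  rcases mul_eq_zero.1 h1.symm with h3 | h3
  · exact h3
  · exact absurd h3 h2

lemma Phi_surj {y : MonoidAlgebra ℂ G} (hy : y ∈ cornerS D.B) : ∃ a, D.Phi a = y := by
  classical
  have hq : (D.q : ℂ) ≠ 0 := by exact_mod_cast D.q_pos.ne'
  refine ⟨fun w => (∑ g ∈ Finset.univ.filter (fun g => D.lab g = w), y.coeff g) * ((D.q : ℂ) ^ D.X.len w)⁻¹, ?_⟩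
  have e1 : y = ∑ g, y.coeff g • D.DD (D.lab g) := by
    have e2 : y = ee D.B * y * ee D.B := by rw [hy.1, hy.2]
    conv_lhs => rw [e2, eq_mkA y, Finset.mul_sum, Finset.sum_mul]
    refine Finset.sum_congr rfl fun g _ => ?_
    rw [mul_smul_comm, smul_mul_assoc, ← D.Dn_eq]
    rfl
  conv_rhs => rw [e1]
  rw [Phi_apply, ← Finset.sum_fiberwise Finset.univ D.lab]
  refine Finset.sum_congr rfl fun w _ => ?_
  rw [TT, smul_smul, mul_assoc, inv_mul_cancel₀ (pow_ne_zero _ hq), mul_one, Finset.sum_smul]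
  refine Finset.sum_congr rfl fun g hg => ?_
  rw [(Finset.mem_filter.1 hg).2]

/-- The corner commutes with the values of the operator. -/
lemma corner_comm_HH {z : MonoidAlgebra ℂ G} (hz : z ∈ cornerS D.B) (y : MonoidAlgebra ℂ G) : z * HH D.B y = HH D.B y * z := by
  have e1 : z * HH D.B y = CC y * z := by
    rw [HH, ← mul_assoc, ← mul_assoc, hz.2, CC_comm, mul_assoc, hz.2]
  have e2 : HH D.B y * z = CC y * z := by
    rw [HH, mul_assoc, hz.1, CC_comm, mul_assoc, hz.1]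
  rw [e1, e2]

variable {D}

/-- The conditions on the reduced words. -/
structure RedW (D : HD G W) (wd : W → List W) : Prop where
  mem : ∀ w, ∀ x ∈ wd w, x ∈ D.X.S
  prod : ∀ w, (wd w).prod = w
  len : ∀ w, D.X.len w = (wd w).length

variable {wd : W → List W} (hwd : RedW D wd)
include hwd

lemma Phi_LRw (a : W → ℂ) (w : W) :
    D.Phi (Lw D.X.len (D.q : ℂ) (wd w) *ᵥ (Rw D.X.len (D.q : ℂ) (wd w) *ᵥ a)) = D.TT w * D.Phi a * D.TT w⁻¹ := by
  have hm := D.Phi_mem a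
  have hlist : D.X.len (wd w).prod = (wd w).length := by rw [hwd.prod, hwd.len]
  have h2 : D.Phi (Rw D.X.len (D.q : ℂ) (wd w) *ᵥ a) = D.Phi a * D.TT w⁻¹ := by
    have hrev : (wd w).reverse.prod = w⁻¹ := by rw [D.prod_reverse_S _ (hwd.mem w), hwd.prod]
    rw [D.Phi_Rw _ (hwd.mem w), D.TT_word_r _ (fun x hx => hwd.mem w x (List.mem_reverse.1 hx)) (by rw [hrev, D.X.len_inv, hwd.len, List.length_reverse]) hm.2, hrev]
  rw [D.Phi_Lw _ (hwd.mem w), h2]
  have h3 : D.e₀ * (D.Phi a * D.TT w⁻¹) = D.Phi a * D.TT w⁻¹ := by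
    rw [← mul_assoc]
    congr 1
    exact hm.1
  rw [D.TT_word _ (hwd.mem w) hlist h3, hwd.prod, mul_assoc]

/-- The Higman operator is the operator on the corner. -/
theorem Phi_Hig (a : W → ℂ) :
    D.Phi (Hig D.X.len wd (D.q : ℂ) *ᵥ a) = (((D.q : ℂ) ^ (∑ v, D.X.len v)) / (Nat.card D.B : ℂ)) • HH D.B (D.Phi a) := by
  have hB : (Nat.card D.B : ℂ) ≠ 0 := card_B_ne
  have hm := D.Phi_mem a
  rw [D.ee_CC_ee hm.1 hm.2, Hig, Matrix.sum_mulVec, map_sum, Finset.smul_sum]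
  refine Finset.sum_congr rfl fun w _ => ?_
  have e1 : D.TT w * D.Phi a * D.TT w⁻¹ = ((D.q : ℂ) ^ D.X.len w * (D.q : ℂ) ^ D.X.len w) • (D.DD w * D.Phi a * D.DD w⁻¹) := by
    rw [TT, TT, D.X.len_inv]
    simp only [smul_mul_assoc, mul_smul_comm, smul_smul]
  rw [Matrix.smul_mulVec, map_smul, ← Matrix.mulVec_mulVec, Phi_LRw hwd, e1, D.nn_eq, smul_smul, smul_smul]
  congr 1
  have hle : D.X.len w ≤ ∑ v, D.X.len v := Finset.single_le_sum (f := D.X.len) (fun _ _ => Nat.zero_le _) (Finset.mem_univ w)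
  obtain ⟨k, hk⟩ := Nat.exists_eq_add_of_le hle
  rw [hk, Nat.add_sub_cancel_left]
  push_cast
  field_simp
  ring

lemma c0_ne : (((D.q : ℂ) ^ (∑ v, D.X.len v)) / (Nat.card D.B : ℂ)) ≠ 0 := by
  have hq : (D.q : ℂ) ≠ 0 := by exact_mod_cast D.q_pos.ne'
  exact div_ne_zero (pow_ne_zero _ hq) card_B_ne

/-- The centre of the Hecke algebra is the image of the Higman operator. -/
theorem ker_eq_range {S : Type*} [Fintype S] [DecidableEq S] (σ : S → W) (hσ : ∀ x ∈ D.X.S, ∃ s, σ s = x) (hσ' : ∀ s, σ s ∈ D.X.S) :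
    LinearMap.ker (Cm D.X.len S σ (D.q : ℂ)).mulVecLin = LinearMap.range (Hig D.X.len wd (D.q : ℂ)).mulVecLin := by
  have hc := c0_ne hwd
  ext a
  rw [mem_ker_Cm, LinearMap.mem_range]
  constructor
  · intro h
    set z := D.Phi a with hz
    have hzc := D.Phi_mem a
    have h1 : ∀ x ∈ D.X.S, D.TT x * z = z * D.TT x := by
      intro x hx
      obtain ⟨s, rfl⟩ := hσ x hx
      rw [hz, ← D.Phi_Ls hx, ← D.Phi_Rs hx, h s]
    have h2 : ∀ l : List W, (∀ x ∈ l, x ∈ D.X.S) → (l.map D.TT).prod * z = z * (l.map D.TT).prod := by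
      intro l
      induction l with
      | nil => simp
      | cons x l ih =>
        intro hl
        rw [List.map_cons, List.prod_cons, mul_assoc, ih (fun y hy => hl y (List.mem_cons_of_mem _ hy)), ← mul_assoc, h1 x (hl x (by simp)), mul_assoc]
    have h3 : ∀ w, D.DD w * z = z * D.DD w := by
      intro w
      have hlist : D.X.len (wd w).prod = (wd w).length := by rw [hwd.prod, hwd.len]
      have h4 := h2 (wd w) (hwd.mem w)
      rw [D.TT_word _ (hwd.mem w) hlist hzc.1, D.TT_word_r _ (hwd.mem w) hlist hzc.2, hwd.prod, TT, smul_mul_assoc, mul_smul_comm] at h4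
      have hq : (D.q : ℂ) ≠ 0 := by exact_mod_cast D.q_pos.ne'
      exact smul_right_injective _ (pow_ne_zero _ hq) h4
    obtain ⟨y₀, hy1, hy2, hy3⟩ := exists_HH_eq_ee (B := D.B)
    have hcor : y₀ * z ∈ cornerS D.B := ⟨by rw [← mul_assoc, hy1], by rw [mul_assoc, hzc.2]⟩
    have h5 : HH D.B (y₀ * z) = z := by
      have e1 := D.ee_CC_ee hy1 hy2
      rw [D.ee_CC_ee hcor.1 hcor.2]
      have e2 : ∀ w, (D.nn w : ℂ) • (D.DD w * (y₀ * z) * D.DD w⁻¹) = ((D.nn w : ℂ) • (D.DD w * y₀ * D.DD w⁻¹)) * z := by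
        intro w
        have e3 : D.DD w * (y₀ * z) * D.DD w⁻¹ = D.DD w * y₀ * D.DD w⁻¹ * z := by
          calc D.DD w * (y₀ * z) * D.DD w⁻¹ = D.DD w * (y₀ * (z * D.DD w⁻¹)) := by simp only [mul_assoc]
            _ = D.DD w * (y₀ * (D.DD w⁻¹ * z)) := by rw [h3]
            _ = D.DD w * y₀ * D.DD w⁻¹ * z := by simp only [mul_assoc]
        rw [e3, smul_mul_assoc]
      simp only [e2]
      rw [← Finset.sum_mul, ← e1, hy3]
      exact hzc.1
    obtain ⟨b, hb⟩ := D.Phi_surj hcor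
    refine ⟨(((D.q : ℂ) ^ (∑ v, D.X.len v)) / (Nat.card D.B : ℂ))⁻¹ • b, ?_⟩
    apply D.Phi_inj
    rw [Matrix.mulVecLin_apply, Matrix.mulVec_smul, map_smul, Phi_Hig hwd, hb, h5, smul_smul, inv_mul_cancel₀ hc, one_smul]
  · rintro ⟨b, rfl⟩ s
    apply D.Phi_inj
    rw [Matrix.mulVecLin_apply, D.Phi_Ls (hσ' s), D.Phi_Rs (hσ' s), Phi_Hig hwd, mul_smul_comm, smul_mul_assoc]
    congr 1
    exact D.corner_comm_HH ⟨D.e_mul_TT _, D.TT_mul_e _⟩ _

/-- The rank of the Higman operator is the number of irreducible constituents. -/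
theorem rank_Hig : (Hig D.X.len wd (D.q : ℂ)).rank = Nat.card (IrrB D.B) := by
  have hc := c0_ne hwd
  rw [← finrank_HH (B := D.B)]
  have hmap : (cornerS D.B).map (HHL D.B) = (LinearMap.range (Hig D.X.len wd (D.q : ℂ)).mulVecLin).map D.Phi := by
    ext y
    constructor
    · rintro ⟨z, hz, rfl⟩
      obtain ⟨a, rfl⟩ := D.Phi_surj hz
      refine ⟨_, ⟨(((D.q : ℂ) ^ (∑ v, D.X.len v)) / (Nat.card D.B : ℂ))⁻¹ • a, rfl⟩, ?_⟩
      rw [Matrix.mulVecLin_apply, Matrix.mulVec_smul, map_smul, Phi_Hig hwd, smul_smul, inv_mul_cancel₀ hc, one_smul]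
      rfl
    · rintro ⟨_, ⟨a, rfl⟩, rfl⟩
      rw [Matrix.mulVecLin_apply, Phi_Hig hwd]
      refine ⟨(((D.q : ℂ) ^ (∑ v, D.X.len v)) / (Nat.card D.B : ℂ)) • D.Phi a, Submodule.smul_mem _ _ (D.Phi_mem a), ?_⟩
      change HH D.B _ = _
      simp only [HH, CC_smul, mul_smul_comm, smul_mul_assoc]
  rw [hmap]
  exact LinearEquiv.finrank_eq (Submodule.equivMapOfInjective D.Phi D.Phi_inj _)

end HD

end Cfsg.Agent.Lib.Hecke
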