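/-
Tits' deformation: the rank of the Higman operator of the generic Hecke algebra is the number of conjugacy classes of the Coxeter group.
-/
import Cfsg.Agent.Lib.Hecke.Family

set_option autoImplicit false

namespace Cfsg.Agent.Lib.Hecke

open Polynomial Matrix Module Cfsg.Agent.Lib.BNSt Cfsg.Agent.Lib.Char

variable {W : Type*} [Group W] [Fintype W] [DecidableEq W] (X : CoxLen W)

/-- The functions commuting with the generators at the parameter `1` are the class functions. -/
theorem ker_one_eq_class {S : Type*} [Fintype S] [DecidableEq S] (σ : S → W) (hσ : ∀ x ∈ X.S, ∃ s, σ s = x) (hσ' : ∀ s, σ s ∈ X.S) :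
    LinearMap.ker (Cm X.len S σ (1 : ℂ)).mulVecLin = classFunctions W := by
  ext a
  rw [mem_ker_Cm, mem_classFunctions]
  constructor
  · intro h
    have h1 : ∀ x ∈ X.S, ∀ v, a (x⁻¹ * v * x) = a v := by
      intro x hx v
      obtain ⟨s, rfl⟩ := hσ x hx
      have h2 := congrFun (h s) (v * σ s)
      rw [Ls_one_mulVec, Rs_one_mulVec, X.inv_S hx] at h2
      rw [X.inv_S hx]
      rw [show σ s * (v * σ s) = σ s * v * σ s by group, mul_assoc v, X.sq _ hx, mul_one] at h2
      exact h2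
    have h2 : ∀ l : List W, (∀ x ∈ l, x ∈ X.S) → ∀ v, a (l.prod⁻¹ * v * l.prod) = a v := by
      intro l
      induction l with
      | nil => simp
      | cons x l ih =>
        intro hl v
        have e : (x :: l).prod⁻¹ * v * (x :: l).prod = l.prod⁻¹ * (x⁻¹ * v * x) * l.prod := by
          simp only [List.prod_cons]
          group
        rw [e, ih (fun y hy => hl y (List.mem_cons_of_mem _ hy)), h1 x (hl x (by simp))]
    intro g w
    obtain ⟨l, hl, hp, -⟩ := X.exists_word w⁻¹
    have := h2 l hl g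
    rwa [hp, inv_inv] at this
  · intro h s
    funext v
    rw [Ls_one_mulVec, Rs_one_mulVec]
    have := h (v * (σ s)⁻¹) (σ s)⁻¹
    rw [← this]
    congr 1
    group

/-- The deformation argument. -/
theorem rank_Hig_eq {S : Type*} [Fintype S] [DecidableEq S] (σ : S → W) (hσ : ∀ x ∈ X.S, ∃ s, σ s = x) (hσ' : ∀ s, σ s ∈ X.S)
    (wd : W → List W) (hwd : ∀ w, (∀ x ∈ wd w, x ∈ X.S) ∧ (wd w).prod = w) (Q : Set ℕ) (hQ : Q.Infinite)
    (h : ∀ q ∈ Q, LinearMap.ker (Cm X.len S σ (q : ℂ)).mulVecLin = LinearMap.range (Hig X.len wd (q : ℂ)).mulVecLin) :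
    ∀ q ∈ Q, (Hig X.len wd (q : ℂ)).rank = Nat.card (ConjClasses W) := by
  classical
  set Q' : Set ℂ := insert 1 ((fun q : ℕ => (q : ℂ)) '' Q) with hQ'
  have hQ'i : Q'.Infinite := by
    refine Set.Infinite.mono (Set.subset_insert _ _) (hQ.image ?_)
    intro a _ b _ e
    exact Nat.cast_injective e
  have hker : ∀ t ∈ Q', LinearMap.ker (evalM (Cm X.len S σ (Polynomial.X : ℂ[X])) t).mulVecLin =
      LinearMap.range (evalM (Hig X.len wd (Polynomial.X : ℂ[X])) t).mulVecLin := by
    intro t ht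
    rw [evalM_Hig, evalM_Cm]
    rcases Set.mem_insert_iff.1 ht with rfl | ⟨q, hq, rfl⟩
    · exact ker_eq_range_one X σ hσ hσ' wd hwd
    · exact h q hq
  intro q hq
  have h1 := deform _ _ Q' hQ'i hker (t := (q : ℂ)) (t' := 1) (Set.mem_insert_of_mem _ ⟨q, hq, rfl⟩) (Set.mem_insert _ _)
  rw [evalM_Hig, evalM_Hig] at h1
  rw [h1]
  have h2 : (Hig X.len wd (1 : ℂ)).rank = finrank ℂ (LinearMap.range (Hig X.len wd (1 : ℂ)).mulVecLin) := rfl
  rw [h2, ← ker_eq_range_one X σ hσ hσ' wd hwd, ker_one_eq_class X σ hσ hσ', (classFunctionsEquiv W).finrank_eq,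
    Module.finrank_fintype_fun_eq_card, Nat.card_eq_fintype_card]

end Cfsg.Agent.Lib.Hecke
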