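/-
From a (B,N)-pair with an isomorphism of its Weyl group onto a fixed group, to the data of the Hecke algebra.
-/
import Cfsg.Agent.Lib.Hecke.Deform
import Cfsg.Agent.Lib.Hecke.Alg2
import Cfsg.Agent.Lib.BNSt.Weyl

set_option autoImplicit false

namespace Cfsg.Agent.Lib.Hecke

open Cfsg Cfsg.Agent.Lib.BN Cfsg.Agent.Lib.BNSt

universe u v

section Transport

variable {W₁ W₂ : Type*} [Group W₁] [Group W₂]

lemma len_iso_le (X₁ : CoxLen W₁) (X₂ : CoxLen W₂) (e : W₁ ≃* W₂) (hS : ∀ s ∈ X₁.S, e s ∈ X₂.S) (w : W₁) :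
    X₂.len (e w) ≤ X₁.len w := by
  obtain ⟨l, hl, rfl, e1⟩ := X₁.exists_word w
  rw [← e1, map_list_prod, ← List.length_map (f := e)]
  apply X₂.len_prod_le
  intro x hx
  obtain ⟨y, hy, rfl⟩ := List.mem_map.1 hx
  exact hS y (hl y hy)

/-- The length is determined by the generators. -/
lemma len_iso (X₁ : CoxLen W₁) (X₂ : CoxLen W₂) (e : W₁ ≃* W₂) (hS : ∀ s, s ∈ X₁.S ↔ e s ∈ X₂.S) (w : W₁) :
    X₂.len (e w) = X₁.len w := by
  apply le_antisymm (len_iso_le X₁ X₂ e (fun s hs => (hS s).1 hs) w)
  have := len_iso_le X₂ X₁ e.symm (fun s hs => (hS _).2 (by simpa using hs)) (e w)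
  simpa using this

/-- Transport of the Coxeter structure along an isomorphism. -/
def transportCox (X : CoxLen W₁) (e : W₁ ≃* W₂) : CoxLen W₂ where
  S := e '' X.S
  len w := X.len (e.symm w)
  sq := by
    rintro _ ⟨s, hs, rfl⟩
    rw [← map_mul, X.sq s hs, map_one]
  len_eq_zero w := by
    rw [X.len_eq_zero]
    simp
  len_inv w := by
    rw [map_inv, X.len_inv]
  step := by
    rintro _ ⟨s, hs, rfl⟩ w
    have := X.step s hs (e.symm w)
    simpa [map_mul] using this
  exists_word w := by
    obtain ⟨l, hl, h, hlen⟩ := X.exists_word (e.symm w)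
    refine ⟨l.map e, ?_, ?_, ?_⟩
    · intro x hx
      obtain ⟨y, hy, rfl⟩ := List.mem_map.1 hx
      exact ⟨y, hl y hy, rfl⟩
    · rw [← map_list_prod, h]
      simp
    · rw [List.length_map, hlen]
  exch := by
    rintro l hl hlen _ ⟨s, hs, rfl⟩ hlt
    have hm : ∀ x ∈ l.map e.symm, x ∈ X.S := by
      intro x hx
      obtain ⟨y, hy, rfl⟩ := List.mem_map.1 hx
      obtain ⟨z, hz, rfl⟩ := hl y hy
      simpa using hz
    have hp : (l.map e.symm).prod = e.symm l.prod := (map_list_prod e.symm l).symm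
    have hlen' : X.len (l.map e.symm).prod = (l.map e.symm).length := by
      rw [hp, List.length_map]
      exact hlen
    have hlt' : X.len (s * (l.map e.symm).prod) < (l.map e.symm).length := by
      rw [hp, List.length_map]
      simpa [map_mul] using hlt
    obtain ⟨l₁, x, l₂, h1, h2⟩ := X.exch _ hm hlen' s hs hlt'
    have hl' : l = (l.map e.symm).map e := by simp
    refine ⟨l₁.map e, e x, l₂.map e, ?_, ?_⟩
    · rw [hl', h1]
      simp
    · rw [← map_list_prod, ← map_mul, ← map_mul, h2]

end Transport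

section BN

variable {G : Type u} [Group G] (P : BNPair G) {W : Type v} [Group W] (X : CoxLen W) (e : WG P ≃* W)

/-- The data of the Hecke algebra from a (B,N)-pair. -/
noncomputable def hdOfBN (hS : ∀ s, s ∈ (coxLen P).S ↔ e s ∈ X.S) (q : ℕ) (hq : 0 < q)
    (hc : ∀ s ∈ P.S, q * Nat.card {b : P.B // s * (b : G) * s ∈ P.B} = Nat.card P.B) : HD G W :=
  have hex : ∀ s ∈ X.S, ∃ t ∈ P.S, e (ws P t) = s := by
    intro s hs
    obtain ⟨t, ht, e1⟩ := (hS (e.symm s)).2 (by simpa using hs)
    exact ⟨t, ht, by rw [e1]; simp⟩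
  have hsd : ∀ s (h : s ∈ X.S), (hex s h).choose ∈ P.S ∧ e (ws P (hex s h).choose) = s :=
    fun s h => (hex s h).choose_spec
  have hlab1 : ∀ g : G, e (lbl P g) = 1 ↔ g ∈ P.B := by
    intro g
    rw [map_eq_one_iff e e.injective]
    exact ⟨mem_B_of_lbl, lbl_B⟩
  open Classical in
  { B := P.B
    X := X
    lab := fun g => e (lbl P g)
    surj := by
      intro w
      obtain ⟨n, hn, h⟩ := exists_rep (e.symm w)
      refine ⟨n, ?_⟩
      show e (lbl P n) = w
      rw [lbl_ws hn, h]
      simp
    lab_eq_iff := by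
      intro g g'
      rw [e.injective.eq_iff]
      exact lbl_eq_iff
    lab_inv := by
      intro g
      rw [lbl_inv, map_inv]
    lab_one := by rw [lbl_one, map_one]
    lab_add := by
      intro g h hh
      have h1 : wlen P (lbl P g * lbl P h) = wlen P (lbl P g) + wlen P (lbl P h) := by
        have h2 := len_iso (coxLen P) X e hS
        rw [← map_mul, h2, h2, h2] at hh
        exact hh
      rw [lbl_mul_add h1, map_mul]
    sd := fun s => if h : s ∈ X.S then (hex s h).choose else 1
    lab_sd := by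
      intro s hs
      simp only [dif_pos hs]
      rw [lbl_ws (S_mem_N (hsd s hs).1)]
      exact (hsd s hs).2
    step := by
      intro s hs g
      simp only [dif_pos hs]
      rcases lbl_S_mul (hsd s hs).1 g with h | h
      · left
        rw [h, map_mul, (hsd s hs).2]
      · right
        rw [h]
    q := q
    q_pos := hq
    q_count := by
      intro s hs
      simp only [dif_pos hs]
      rw [← hc _ (hsd s hs).1]
      congr 1
      exact Nat.card_congr (Equiv.subtypeEquivRight fun b => hlab1 _) }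

end BN

end Cfsg.Agent.Lib.Hecke
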