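/-
The number of irreducible constituents of the permutation character on the Borel subgroup of a Chevalley group.
-/
import Cfsg.Agent.Lib.Hecke.BNHD
import Cfsg.Agent.Lib.Chev.WeyN
import Cfsg.Agent.Lib.BNSt.Chev

set_option autoImplicit false

namespace Cfsg.Agent.Lib.Hecke

open Cfsg Cfsg.Lie Cfsg.Agent.Lib.Chev Cfsg.Agent.Lib.BN Cfsg.Agent.Lib.BNSt

variable {F : Type*} [Field F] {D : ChevalleyDatum} {T : Tbl}

/-- An element of the root subgroup of a simple root whose conjugate by `N_i` lies in `B` is trivial. -/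
lemma xU_conj_eq_zero (hG : T.Good2 D) {i : ℕ} (hi : i < D.rank) {c : F}
    (h : hG.nU hi * hG.xU (hG.simple_lt hi) c * (hG.nU hi)⁻¹ ∈ D.borelSubgroup F) : c = 0 := by
  have hp := hG.simple_lt hi
  have hn := hG.neg_lt hp
  rw [hG.nU_conj hi hp, hG.xU_congr (hG.refl_lt' hi hp) hn (hG.refl_simple hi) rfl] at h
  have hneg : D.neg (D.simple i) < D.nroots / 2 := by
    have h3 := hG.neg_add hp
    have h4 := hG.even_n
    have h5 := (hG.isPos_iff hp).1 (hG.simple_pos hi)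
    omega
  by_contra hc
  exact hG.xU_neg_not_mem_B hn hneg (mul_ne_zero (hG.eps_ne hi hp) hc) h

lemma conj_mem_iff (hG : T.Good2 D) {i : ℕ} (hi : i < D.rank) {b : GL D.Idx F} (hb : b ∈ D.borelSubgroup F) :
    hG.nU hi * b * hG.nU hi ∈ D.borelSubgroup F ↔ b ∈ Ui D F i ⊔ D.diagonalSubgroup F := by
  constructor
  · intro h
    obtain ⟨k, hk, a, rfl⟩ := hG.borel_decomp hi hb
    have hp := hG.simple_lt hi
    have h1 := hG.UiH_le_B i (hG.nU_conj_Ui_H hi hk)
    have h2 := hG.nU_sq_mem_B (F := F) hi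
    have h3 : hG.nU hi * hG.xU hp a * (hG.nU hi)⁻¹ ∈ D.borelSubgroup F := by
      have h4 := mul_mem (mul_mem (inv_mem h1) h) (inv_mem h2)
      have e : (hG.nU hi * k * (hG.nU hi)⁻¹)⁻¹ * (hG.nU hi * (k * hG.xU hp a) * hG.nU hi) * (hG.nU hi * hG.nU hi)⁻¹ =
          hG.nU hi * hG.xU hp a * (hG.nU hi)⁻¹ := by group
      rwa [e] at h4
    have ha := xU_conj_eq_zero hG hi h3
    have hx : hG.xU hp a = 1 := by
      rw [ha]
      apply Units.ext
      rw [Tbl.Good.xU_coe, x_zero, Units.val_one]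
    rwa [hx, mul_one]
  · intro h
    have e : hG.nU hi * b * hG.nU hi = (hG.nU hi * b * (hG.nU hi)⁻¹) * (hG.nU hi * hG.nU hi) := by group
    rw [e]
    exact mul_mem (hG.UiH_le_B i (hG.nU_conj_Ui_H hi h)) (hG.nU_sq_mem_B hi)

/-- The count of the parameter: `q` times the number of elements of `B` conjugated into `B` by `s` is `|B|`. -/
theorem card_count (hG : T.Good2 D) [Finite F] {s : ↥(D.group F)} (hs : s ∈ (hG.bn (F := F)).S) :
    Nat.card F * Nat.card {b : (hG.bn (F := F)).B // s * (b : ↥(D.group F)) * s ∈ (hG.bn (F := F)).B} =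
      Nat.card (hG.bn (F := F)).B := by
  obtain ⟨i, hi, hsi⟩ := hs
  have hsn : (s : GL D.Idx F) = hG.nU hi := hG.eq_nU hi hsi
  have hp := hG.simple_lt hi
  have hpp := (hG.isPos_iff hp).1 (hG.simple_pos hi)
  have hxB : ∀ a : F, hG.xU hp a ∈ D.borelSubgroup F := fun a => Tbl.Good2.le_borel_U (hG.xU_mem_U hp hpp a)
  let x : F → (hG.bn (F := F)).B := fun a =>
    ⟨⟨hG.xU hp a, hG.B_le_group (hxB a)⟩, Subgroup.mem_subgroupOf.2 (hxB a)⟩
  have hmem : ∀ b : (hG.bn (F := F)).B, (s * (b : ↥(D.group F)) * s ∈ (hG.bn (F := F)).B) ↔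
      (((b : ↥(D.group F)) : GL D.Idx F) ∈ Ui D F i ⊔ D.diagonalSubgroup F) := by
    intro b
    rw [← conj_mem_iff hG hi (Subgroup.mem_subgroupOf.1 b.2), ← hsn]
    exact Subgroup.mem_subgroupOf
  let f : F × {b : (hG.bn (F := F)).B // s * (b : ↥(D.group F)) * s ∈ (hG.bn (F := F)).B} → (hG.bn (F := F)).B :=
    fun q => q.2.1 * x q.1
  have hf : Function.Bijective f := by
    constructor
    · rintro ⟨a, k⟩ ⟨a', k'⟩ h
      have h' : ((k.1 : ↥(D.group F)) : GL D.Idx F) * hG.xU hp a = ((k'.1 : ↥(D.group F)) : GL D.Idx F) * hG.xU hp a' :=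
        congrArg (fun y : (hG.bn (F := F)).B => ((y : ↥(D.group F)) : GL D.Idx F)) h
      have hk := (hmem k.1).1 k.2
      have hk' := (hmem k'.1).1 k'.2
      have hc : hG.xU hp (a + -a') ∈ Ui D F i ⊔ D.diagonalSubgroup F := by
        have e : hG.xU hp (a + -a') = ((k.1 : ↥(D.group F)) : GL D.Idx F)⁻¹ * ((k'.1 : ↥(D.group F)) : GL D.Idx F) := by
          rw [← hG.xU_mul hp a (-a'), ← hG.xU_inv hp a']
          rw [eq_inv_mul_iff_mul_eq, ← mul_assoc, h', mul_assoc, mul_inv_cancel, mul_one]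
        rw [e]
        exact mul_mem (inv_mem hk) hk'
      have hc2 : hG.nU hi * hG.xU hp (a + -a') * (hG.nU hi)⁻¹ ∈ D.borelSubgroup F :=
        hG.UiH_le_B i (hG.nU_conj_Ui_H hi hc)
      have h0 := xU_conj_eq_zero hG hi hc2
      have haa : a = a' := by
        rw [← sub_eq_add_neg] at h0
        exact sub_eq_zero.1 h0
      subst haa
      have hkk : k.1 = k'.1 := mul_right_cancel (b := x a) h
      rw [Subtype.ext hkk]
    · intro b
      obtain ⟨k, hk, a, e⟩ := hG.borel_decomp hi (Subgroup.mem_subgroupOf.1 b.2)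
      have hkB := hG.UiH_le_B i hk
      let k' : (hG.bn (F := F)).B := ⟨⟨k, hG.B_le_group hkB⟩, Subgroup.mem_subgroupOf.2 hkB⟩
      refine ⟨(a, ⟨k', (hmem k').2 hk⟩), ?_⟩
      apply Subtype.ext
      apply Subtype.ext
      exact e.symm
  rw [← Nat.card_congr (Equiv.ofBijective f hf), Nat.card_prod]

variable {n : ℕ} {M : CoxeterMatrix (Fin n)} {ρ : M.Group →* Equiv.Perm (Fin D.nroots)}

/-- The Weyl group of the (B,N)-pair is the Coxeter group. -/
theorem exists_iso (hG : T.Good2 D) (hn : n = D.rank)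
    (hρ : ∀ (i : Fin n) (r : Fin D.nroots), (ρ (M.simple i) r).val = T.refl i r) (hinj : Function.Injective ρ)
    (F : Type*) [Field F] :
    ∃ e : WG (hG.bn (F := F)) ≃* M.Group, ∀ s, s ∈ (coxLen (hG.bn (F := F))).S ↔ e s ∈ Set.range M.simple := by
  obtain ⟨φ, hsurj, hker, hφ⟩ := Wey.N_quot hG F hn hρ hinj
  let ψ : (hG.bn (F := F)).N →* ↥(D.monomialSubgroup F) :=
    MonoidHom.mk' (fun x => ⟨x.1.1, Subgroup.mem_subgroupOf.1 x.2⟩) (fun _ _ => rfl)
  let Φ := φ.comp ψ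
  have hΦs : Function.Surjective Φ := hsurj.comp (by
    rintro ⟨m, hm⟩
    exact ⟨⟨⟨m, hG.N_le_group hm⟩, Subgroup.mem_subgroupOf.2 hm⟩, rfl⟩)
  have hk : ((hG.bn (F := F)).B ⊓ (hG.bn (F := F)).N).subgroupOf (hG.bn (F := F)).N = Φ.ker := by
    ext x
    rw [Subgroup.mem_subgroupOf]
    have h1 : x ∈ Φ.ker ↔ ψ x ∈ φ.ker := by
      rw [MonoidHom.mem_ker, MonoidHom.mem_ker]
      rfl
    rw [h1, hker, Subgroup.mem_subgroupOf]
    constructor
    · rintro ⟨h2, h3⟩
      have h4 : (x.1 : GL D.Idx F) ∈ D.borelSubgroup F ⊓ D.monomialSubgroup F :=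
        ⟨Subgroup.mem_subgroupOf.1 h2, Subgroup.mem_subgroupOf.1 h3⟩
      rwa [hG.B_inf_N] at h4
    · intro h2
      exact ⟨Subgroup.mem_subgroupOf.2 (Tbl.Good2.le_borel_H h2), x.2⟩
  let e : WG (hG.bn (F := F)) ≃* M.Group :=
    (QuotientGroup.quotientMulEquivOfEq hk).trans (QuotientGroup.quotientKerEquivOfSurjective Φ hΦs)
  have he : ∀ (i : Fin n) (s : ↥(D.group F)) (hs : s ∈ (hG.bn (F := F)).N),
      ((s : GL D.Idx F) : Matrix D.Idx D.Idx F) = D.nMat F (D.simple i) 1 → e (ws (hG.bn (F := F)) s) = M.simple i := by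
    intro i s hs hm
    rw [ws_of_mem hs]
    exact hφ i ⟨s, Subgroup.mem_subgroupOf.1 hs⟩ hm
  refine ⟨e, ?_⟩
  intro s
  constructor
  · rintro ⟨t, ⟨i, hi, hti⟩, rfl⟩
    exact ⟨⟨i, hn ▸ hi⟩, (he ⟨i, hn ▸ hi⟩ t (S_mem_N ⟨i, hi, hti⟩) hti).symm⟩
  · rintro ⟨i, hi⟩
    have hi' : (i : ℕ) < D.rank := hn ▸ i.2
    have h1 : rS hG (i : ℕ) ∈ (hG.bn (F := F)).S := ⟨i, hi', by rw [rS_coe hG hi']; simp⟩
    refine ⟨rS hG (i : ℕ), h1, ?_⟩
    apply e.injective
    rw [← hi]
    exact he i _ (S_mem_N h1) (by rw [rS_coe hG hi']; simp)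

/-- The facts at a finite field. -/
theorem field_facts (hG : T.Good2 D) (hn : n = D.rank)
    (hρ : ∀ (i : Fin n) (r : Fin D.nroots), (ρ (M.simple i) r).val = T.refl i r) (hinj : Function.Injective ρ)
    [Fintype M.Group] [DecidableEq M.Group] (X : CoxLen M.Group) (hX : X.S = Set.range M.simple)
    (wd : M.Group → List M.Group) (h1 : ∀ w, ∀ x ∈ wd w, x ∈ X.S) (h2 : ∀ w, (wd w).prod = w)
    (h3 : ∀ w, X.len w = (wd w).length) (F : Type*) [Field F] [Finite F] :
    LinearMap.ker (Cm X.len (Fin n) M.simple (Nat.card F : ℂ)).mulVecLin =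
        LinearMap.range (Hig X.len wd (Nat.card F : ℂ)).mulVecLin ∧
      (Hig X.len wd (Nat.card F : ℂ)).rank =
        Nat.card {χ : IrrCharacter ↥(D.group F) //
          ∃ φ : ↥(D.group F) → ℂ, IsCharacter ↥(D.group F) φ ∧
            fixedPointCharacter ((D.borelSubgroup F).subgroupOf (D.group F)) = (χ : ↥(D.group F) → ℂ) + φ} := by
  classical
  obtain ⟨e, he⟩ := exists_iso hG hn hρ hinj F
  have hS : ∀ s, s ∈ (coxLen (hG.bn (F := F))).S ↔ e s ∈ X.S := by
    intro s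
    rw [hX]
    exact he s
  have hfin : Finite ↥(D.group F) := Subtype.finite
  letI : Fintype ↥(D.group F) := Fintype.ofFinite _
  let HDF : HD ↥(D.group F) M.Group := hdOfBN (hG.bn (F := F)) X e hS (Nat.card F) Nat.card_pos
    (fun s hs => card_count hG hs)
  letI : Fintype HDF.B := Fintype.ofFinite _
  have hwd : HD.RedW HDF wd := ⟨h1, h2, h3⟩
  constructor
  · exact HD.ker_eq_range hwd (S := Fin n) M.simple (fun x hx => by rw [show HDF.X.S = X.S from rfl, hX] at hx; exact hx)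
      (fun s => by rw [show HDF.X.S = X.S from rfl, hX]; exact ⟨s, rfl⟩)
  · have := HD.rank_Hig hwd
    refine this.trans (Nat.card_congr (Equiv.subtypeEquivRight fun χ => irrB_iff χ))

/-- The main theorem. -/
theorem main (hG : T.Good2 D) (hn : n = D.rank)
    (hρ : ∀ (i : Fin n) (r : Fin D.nroots), (ρ (M.simple i) r).val = T.refl i r) (hinj : Function.Injective ρ)
    (F : Type*) [Field F] [Finite F] :
    Nat.card {χ : IrrCharacter ↥(D.group F) //
      ∃ φ : ↥(D.group F) → ℂ, IsCharacter ↥(D.group F) φ ∧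
        fixedPointCharacter ((D.borelSubgroup F).subgroupOf (D.group F)) = (χ : ↥(D.group F) → ℂ) + φ} =
      Nat.card (ConjClasses M.Group) := by
  classical
  haveI : Finite M.Group := Finite.of_injective ρ hinj
  letI : Fintype M.Group := Fintype.ofFinite _
  obtain ⟨e, he⟩ := exists_iso hG hn hρ hinj F
  let X : CoxLen M.Group := transportCox (coxLen (hG.bn (F := F))) e
  have hX : X.S = Set.range M.simple := by
    ext w
    constructor
    · rintro ⟨s, hs, rfl⟩
      exact (he s).1 hs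
    · intro hw
      refine ⟨e.symm w, (he _).2 (by simpa using hw), by simp⟩
  choose wd hwd using X.exists_word
  have h1 : ∀ w, ∀ x ∈ wd w, x ∈ X.S := fun w => (hwd w).1
  have h2 : ∀ w, (wd w).prod = w := fun w => (hwd w).2.1
  have h3 : ∀ w, X.len w = (wd w).length := fun w => (hwd w).2.2.symm
  let Q : Set ℕ := {q | ∃ m : ℕ, q = 2 ^ (m + 1)} ∪ {Nat.card F}
  have hQ : Q.Infinite := by
    refine Set.Infinite.mono Set.subset_union_left ?_
    have : Function.Injective (fun m : ℕ => 2 ^ (m + 1)) := by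
      intro a b h
      have := Nat.pow_right_injective (le_refl 2) h
      omega
    have h4 := Set.infinite_range_of_injective this
    refine h4.mono ?_
    rintro _ ⟨m, rfl⟩
    exact ⟨m, rfl⟩
  have hQ2 : ∀ q ∈ Q, LinearMap.ker (Cm X.len (Fin n) M.simple (q : ℂ)).mulVecLin =
      LinearMap.range (Hig X.len wd (q : ℂ)).mulVecLin := by
    rintro q (⟨m, rfl⟩ | rfl)
    · have h5 := (field_facts hG hn hρ hinj X hX wd h1 h2 h3 (GaloisField 2 (m + 1))).1
      have hc : Nat.card (GaloisField 2 (m + 1)) = 2 ^ (m + 1) := GaloisField.card 2 (m + 1) (by omega)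
      rwa [hc] at h5
    · exact (field_facts hG hn hρ hinj X hX wd h1 h2 h3 F).1
  have h6 := rank_Hig_eq X (S := Fin n) M.simple (fun x hx => by rw [hX] at hx; exact hx)
    (fun s => by rw [hX]; exact ⟨s, rfl⟩) wd (fun w => ⟨h1 w, h2 w⟩) Q hQ hQ2 (Nat.card F) (Or.inr rfl)
  rw [← (field_facts hG hn hρ hinj X hX wd h1 h2 h3 F).2, h6]

end Cfsg.Agent.Lib.Hecke
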